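/-
Orbits of stabilisers of small triangles on minimal vectors.
-/
import Cfsg.Agent.H6.C11a
import Cfsg.Agent.H6.C11b

set_option autoImplicit false
set_option linter.unusedSimpArgs false
set_option linter.unusedVariables false

namespace CfsgH6

open CfsgH5 Cfsg Finset

noncomputable section

theorem extend {a b c a' b' c' z x : LL} {p q r : ℤ} {n : ℕ}
    (h : (Y3 a' b' c' p q r).ncard = n ∧ ∀ x ∈ Y3 a' b' c' p q r,
      ∃ g : Co0, g • a' = a' ∧ g • b' = b' ∧ g • c' = c' ∧ g • x = z)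
    (hg : ∃ g : Co0, g • a = a' ∧ g • b = b' ∧ g • c = c') (hx : x ∈ Y3 a b c p q r) :
    ∃ g : Co0, g • a = a' ∧ g • b = b' ∧ g • c = c' ∧ g • x = z := by
  obtain ⟨g, rfl, rfl, rfl⟩ := hg
  obtain ⟨k, h1, h2, h3, h4⟩ := h.2 _ ((smul_mem_Y3 g).2 hx)
  exact ⟨k * g, by rwa [mul_smul], by rwa [mul_smul], by rwa [mul_smul], by rwa [mul_smul]⟩

theorem good_tr {a b c a' b' c' z : LL} {p q r : ℤ} {n : ℕ}
    (h : (Y3 a' b' c' p q r).ncard = n ∧ ∀ x ∈ Y3 a' b' c' p q r,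
      ∃ g : Co0, g • a' = a' ∧ g • b' = b' ∧ g • c' = c' ∧ g • x = z)
    (hg : ∃ g : Co0, g • a = a' ∧ g • b = b' ∧ g • c = c') : Good a b c p q r n := by
  obtain ⟨g, h1, h2, h3⟩ := hg
  exact (good_of h).of_smul g h1 h2 h3

variable {u v t x : LL}

theorem trU (hu : sqNorm (u : V) = 48) : ∃ g : Co0, g • u = u0 ∧ g • u = u0 ∧ g • u = u0 := by
  obtain ⟨g, h⟩ := transL3 hu; exact ⟨g, h, h, h⟩

theorem trUV (hu : sqNorm (u : V) = 48) (hv : sqNorm (v : V) = 32) (hd : dotInt (u : V) v = 24) :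
    ∃ g : Co0, g • u = u0 ∧ g • v = v0 ∧ g • v = v0 := by
  obtain ⟨g, h, h'⟩ := pair24 hu hv hd; exact ⟨g, h, h', h'⟩

theorem trUT (hu : sqNorm (u : V) = 48) (ht : sqNorm (t : V) = 32) (hd : dotInt (u : V) t = -16) :
    ∃ g : Co0, g • u = u0 ∧ g • t = vec t0c ∧ g • t = vec t0c := by
  obtain ⟨g, h, -, -, h'⟩ := extend cfgC4_0 (trU hu) ⟨ht, hd, hd, hd⟩
  rw [show nthD repC4 0 0 = t0c by decide +kernel] at h'
  exact ⟨g, h, h', h'⟩

theorem trUVX (hu : sqNorm (u : V) = 48) (hv : sqNorm (v : V) = 32) (hd : dotInt (u : V) v = 24)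
    (hx : x ∈ Y3 u v v 24 16 16) : ∃ g : Co0, g • u = u0 ∧ g • v = v0 ∧ g • x = vec x0c := by
  obtain ⟨g, h, h1, -, h'⟩ := extend cfgC2_0 (trUV hu hv hd) hx
  rw [show nthD repC2 0 0 = x0c by decide +kernel] at h'
  exact ⟨g, h, h1, h'⟩

theorem trUVX' (hu : sqNorm (u : V) = 48) (hv : sqNorm (v : V) = 32) (hd : dotInt (u : V) v = 24)
    (hx : x ∈ Y3 u v v (-16) 0 0) : ∃ g : Co0, g • u = u0 ∧ g • v = v0 ∧ g • x = vec x3c := by
  obtain ⟨g, h, h1, -, h'⟩ := extend cfgC8_0 (trUV hu hv hd) hx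
  rw [show nthD repC8 0 0 = x3c by decide +kernel] at h'
  exact ⟨g, h, h1, h'⟩

theorem trUTX (hu : sqNorm (u : V) = 48) (ht : sqNorm (t : V) = 32) (hd : dotInt (u : V) t = -16)
    (hx : x ∈ Y3 u t t 24 0 0) : ∃ g : Co0, g • u = u0 ∧ g • t = vec t0c ∧ g • x = vec x1c := by
  obtain ⟨g, h, h1, -, h'⟩ := extend cfgC6_0 (trUT hu ht hd) hx
  rw [show nthD repC6 0 0 = x1c by decide +kernel] at h'
  exact ⟨g, h, h1, h'⟩

theorem trUTX' (hu : sqNorm (u : V) = 48) (ht : sqNorm (t : V) = 32) (hd : dotInt (u : V) t = -16)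
    (hx : x ∈ Y3 u t t 24 (-8) (-8)) : ∃ g : Co0, g • u = u0 ∧ g • t = vec t0c ∧ g • x = vec x2c := by
  obtain ⟨g, h, h1, -, h'⟩ := extend cfgC6_1 (trUT hu ht hd) hx
  rw [show nthD repC6 0 1 = x2c by decide +kernel] at h'
  exact ⟨g, h, h1, h'⟩

/-- distinct minimal vectors have inner product at most 16 -/
theorem dot_le {x y : LL} (hx : sqNorm (x : V) = 32) (hy : sqNorm (y : V) = 32) (h : y ≠ x) :
    dotInt (x : V) y ≤ 16 := by
  have := min_norm (x - y).2 fun e => h (sub_eq_zero.1 (Subtype.ext e : x - y = 0)).symm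
  rw [AddSubgroup.coe_sub, sqNorm_sub, hx, hy] at this
  omega

theorem dot_552 {x y : LL} (hu : sqNorm (u : V) = 48) (hx : sqNorm (x : V) = 32)
    (hy : sqNorm (y : V) = 32) (h1 : dotInt (u : V) x = 24) (h2 : dotInt (u : V) y = 24)
    (h : y ≠ x) (h' : y ≠ u - x) : dotInt (x : V) y = 8 ∨ dotInt (x : V) y = 16 := by
  have k1 := dot_le hx hy h
  have k2 := dot_le ((norm_sub_iff hu hx).2 h1 : sqNorm ((u - x : LL) : V) = 32) hy h'
  rw [AddSubgroup.coe_sub, dot_sub_left, h2] at k2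
  have := eight_dvd_dot x.2 y.2
  omega

theorem dot_11178 {x y : LL} (hu : sqNorm (u : V) = 48) (hx : sqNorm (x : V) = 32)
    (hy : sqNorm (y : V) = 32) (h1 : dotInt (u : V) x = -16) (h2 : dotInt (u : V) y = -16)
    (h : y ≠ x) : dotInt (x : V) y = -8 ∨ dotInt (x : V) y = 16 ∨ dotInt (x : V) y = 0 ∨
      dotInt (x : V) y = 8 := by
  have k1 := dot_le hx hy h
  have k3 := eight_dvd_dot x.2 y.2
  have k4 : sqNorm ((u + x + y : LL) : V) = 48 + 2 * dotInt (x : V) y := by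
    rw [AddSubgroup.coe_add, AddSubgroup.coe_add, sqNorm_add, sqNorm_add, dot_add_left, hu, hx, hy,
      h1, h2]
    ring
  by_cases h0 : u + x + y = 0
  · rw [h0] at k4
    have k5 := min_norm (x + y).2 fun e => by
      have : u = 0 := by rwa [add_assoc, show x + y = 0 from Subtype.ext e, add_zero] at h0
      rw [this] at hu; simp [sqNorm] at hu
    rw [AddSubgroup.coe_add, sqNorm_add, hx, hy] at k5
    simp [sqNorm] at k4
    omega
  · have := min_norm (u + x + y).2 fun e => h0 (Subtype.ext e)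
    omega

/-- the third side of a triangle with two sides of norm 48 -/
theorem tri {v w : LL} (hv : sqNorm (v : V) = 48) (hw : sqNorm (w : V) = 48)
    (hvw : dotInt (v : V) w = -32) :
    sqNorm ((-(v + w) : LL) : V) = 32 ∧ dotInt (v : V) (-(v + w) : LL) = -16 := by
  rw [AddSubgroup.coe_neg, AddSubgroup.coe_add, sqNorm_neg, sqNorm_add, dot_neg_right, dot_add_right,
    ← sqNorm_eq_dot, hv, hw, hvw]
  exact ⟨rfl, rfl⟩

theorem fix_third {g : Co0} {v w : LL} (h1 : g • v = v) : g • (-(v + w)) = -(v + w) ↔ g • w = w := by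
  rw [co_neg, co_add, h1, neg_inj, add_right_inj]

theorem wH_eq : vec wHc = -(u0 + vec t0c) := by
  apply Subtype.ext
  rw [AddSubgroup.coe_neg, AddSubgroup.coe_add, coe_vec (by decide +kernel),
    coe_vec (by decide +kernel), coe_vec (by decide +kernel)]
  decide +kernel

theorem trVW {v w : LL} (hv : sqNorm (v : V) = 48) (hw : sqNorm (w : V) = 48)
    (hvw : dotInt (v : V) w = -32) : ∃ g : Co0, g • v = u0 ∧ g • w = vec wHc := by
  obtain ⟨g, h1, h2, -⟩ := trUT hv (tri hv hw hvw).1 (tri hv hw hvw).2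
  refine ⟨g, h1, ?_⟩
  rw [wH_eq, ← h1, ← h2, ← co_add, ← co_neg]
  congr 1; abel

theorem exists_swap : ∃ g : Co0, g • u0 = vec wHc ∧ g • vec wHc = u0 := by
  obtain ⟨g, -, h⟩ := exists_map (in_top (a := swC) (by decide +kernel)) [(u0c, wHc), (wHc, u0c)]
    (by decide +kernel)
  exact ⟨g, h (u0c, wHc) (by simp), h (wHc, u0c) (by simp)⟩

theorem exists_inv : ∃ g : Co0, g • u0 = u0 ∧ g • vec t0c = vec t0c ∧ orderOf g = 2 ∧
    ∀ x ∈ Y3 u0 (vec t0c) (vec t0c) 24 0 0, g • x ≠ x := by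
  obtain ⟨g, hr⟩ := exists_rep (a := invC) (by decide +kernel)
  have key : ∀ x ∈ Y3 u0 (vec t0c) (vec t0c) 24 0 0, g • x ≠ x := by
    intro x hx e
    have h1 := tab552 fun n => bif' (band (Nat.beq (pf PC6 n) 134219776) (Nat.beq (act invC n) n)) 1 0
    rw [show sumT T552 552 (fun n => bif' (band (Nat.beq (pf PC6 n) 134219776)
      (Nat.beq (act invC n) n)) 1 0) 10 0 = 0 by decide +kernel, sum_eq_zero_iff] at h1
    have h2 := h1 x (mem_filter.2 ⟨mem_L2F.2 ⟨x.2, hx.1⟩, hx.2.1⟩)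
    have h3 := (pf_eq (P := PC6) (by decide +kernel) (L2_bd ⟨x.2, hx.1⟩)).1
    rw [show rowEnc PC6 0 = t0c by decide +kernel, show rowEnc PC6 1 = t0c by decide +kernel,
      ← coe_vec (by decide +kernel), hx.2.2.1] at h3
    rw [hr.act x (by rw [hx.1]; norm_num), e, show pf PC6 (enc (x : V)) = 134219776 by omega] at h2
    simp [bif'_eq, beq_true_iff] at h2
  refine ⟨g, hr.vec_eq (by decide +kernel) (by decide +kernel) (by decide +kernel),
    hr.vec_eq (by decide +kernel) (by decide +kernel) (by decide +kernel), ?_, key⟩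
  obtain ⟨x, hx⟩ := (good_of cfgC6_0).nonempty (by norm_num)
  refine orderOf_eq_prime (co_ext_e8 fun i => ?_) fun e => key x hx (by rw [e, one_smul])
  rw [one_smul, sq, mul_smul]
  refine hr.smul_eq (by rw [co_norm, norm_e8]) (bd_of_sqNorm (norm_e8 i).le) ?_
  rw [← hr.act _ (norm_e8 i).le, coe_e8]
  revert i; decide +kernel

end

end CfsgH6
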