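/-
From a rational representation of odd degree `n + 1` of a simple group to a faithful
representation of degree `n` over the field with two elements.
-/
import Mathlib

set_option autoImplicit false

namespace CfsgH6

open Matrix Module

/-- a nontrivial representation of degree at most `n` of a simple group embeds it in `GL n` -/
theorem exists_GL_of_le {G F V : Type*} [Group G] [IsSimpleGroup G] [Field F] [AddCommGroup V]
    [Module F V] [FiniteDimensional F V] {n : ℕ} (hV : finrank F V ≤ n)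
    (ρ : G →* Module.End F V) (hρ : ∃ g, ρ g ≠ 1) :
    ∃ H : Subgroup (GL (Fin n) F), Nonempty (G ≃* H) := by
  let U := V × (Fin (n - finrank F V) → F)
  have hU : finrank F U = n := by
    simp only [U, finrank_prod, finrank_fintype_fun_eq_card, Fintype.card_fin]; omega
  let b := Module.finBasisOfFinrankEq F U hU
  let φ : G →* Module.End F U :=
    { toFun := fun g => (ρ g).prodMap 1
      map_one' := by rw [map_one]; exact LinearMap.prodMap_one
      map_mul' := fun g h => by rw [map_mul, LinearMap.prodMap_mul, mul_one] }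
  let ψ : G →* GL (Fin n) F :=
    (((LinearMap.toMatrixAlgEquiv b).toMulEquiv.toMonoidHom).comp φ).toHomUnits
  have hψ : Function.Injective ψ := by
    rw [← MonoidHom.ker_eq_bot_iff]
    refine (ψ.normal_ker.eq_bot_or_eq_top).resolve_right fun h => ?_
    obtain ⟨g, hg⟩ := hρ
    have h1 : ψ g = 1 := (MonoidHom.mem_ker).1 (h ▸ Subgroup.mem_top g)
    have h2 : LinearMap.toMatrixAlgEquiv b (φ g) = 1 := congrArg Units.val h1
    have h3 : φ g = 1 := (LinearMap.toMatrixAlgEquiv b).injective (by rw [h2, map_one])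
    refine hg (LinearMap.ext fun v => ?_)
    exact congrArg Prod.fst (LinearMap.congr_fun h3 (v, 0))
  exact ⟨ψ.range, ⟨MonoidHom.ofInjective hψ⟩⟩

/-- the action on an invariant subspace -/
def subHom {G F V : Type*} [Monoid G] [Ring F] [AddCommGroup V] [Module F V]
    (ρ : G →* Module.End F V) (U : Submodule F V) (hU : ∀ g, ∀ v ∈ U, ρ g v ∈ U) :
    G →* Module.End F U where
  toFun g := (ρ g).restrict (hU g)
  map_one' := by ext v; simp
  map_mul' g h := by ext v; simp

/-- the action on the quotient by an invariant subspace -/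
def quotHom {G F V : Type*} [Monoid G] [Ring F] [AddCommGroup V] [Module F V]
    (ρ : G →* Module.End F V) (U : Submodule F V) (hU : ∀ g, ∀ v ∈ U, ρ g v ∈ U) :
    G →* Module.End F (V ⧸ U) where
  toFun g := U.mapQ U (ρ g) (hU g)
  map_one' := by ext v; simp
  map_mul' g h := by ext v; simp

/-- an element of order three which is trivial on a subspace and on the quotient is trivial -/
theorem eq_one_of_stab {V : Type*} [AddCommGroup V] [Module (ZMod 2) V]
    {x : Module.End (ZMod 2) V} (hx : x ^ 3 = 1) {U : Submodule (ZMod 2) V}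
    (h1 : ∀ v ∈ U, x v = v) (h2 : ∀ v, x v - v ∈ U) : x = 1 := by
  have h3 : ∀ v, x (x v) = v := fun v => by
    have h := h1 _ (h2 v)
    rw [map_sub] at h
    have h4 : x v + x v = 0 := by
      rw [← two_smul (ZMod 2), show (2 : ZMod 2) = 0 from rfl, zero_smul]
    have h5 : v + v = 0 := by
      rw [← two_smul (ZMod 2), show (2 : ZMod 2) = 0 from rfl, zero_smul]
    rw [sub_eq_iff_eq_add] at h
    rw [h, sub_add_eq_add_sub, h4, zero_sub, neg_eq_iff_add_eq_zero, h5]
  ext v
  have := LinearMap.congr_fun hx v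
  simp only [pow_succ, pow_zero, one_mul, Module.End.mul_apply, h3] at this
  exact this

/-- an alternating matrix of odd size over the field with two elements is singular -/
theorem det_alt {m : ℕ} (hm : Odd m) (S : Matrix (Fin m) (Fin m) ℤ) (hS : Sᵀ = S)
    (hd : ∀ i, (S i i : ZMod 2) = 0) : (S.map (Int.castRingHom (ZMod 2))).det = 0 := by
  let A : Matrix (Fin m) (Fin m) ℤ := Matrix.of fun i j =>
    if i < j then S i j else if j < i then -S j i else 0
  have h1 : Aᵀ = -A := by
    ext i j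
    simp only [A, transpose_apply, of_apply, neg_apply]
    rcases lt_trichotomy i j with h | rfl | h
    · simp [h, h.not_gt]
    · simp
    · simp [h, h.not_gt]
  have h2 : A.det = 0 := by
    have := det_transpose A
    rw [h1, det_neg, Fintype.card_fin, hm.neg_one_pow] at this
    omega
  have h3 : S.map (Int.castRingHom (ZMod 2)) = A.map (Int.castRingHom (ZMod 2)) := by
    ext i j
    simp only [A, map_apply, of_apply, eq_intCast]
    rcases lt_trichotomy i j with h | rfl | h
    · simp [h]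
    · simp [hd]
    · have : S j i = S i j := congrFun (congrFun hS i) j
      simp [h, h.not_gt, this, ZMod.neg_eq_self_mod_two]
  rw [h3, ← RingHom.mapMatrix_apply, ← RingHom.map_det, h2, map_zero]

/-- an invariant symmetric integral form which is not zero modulo two -/
theorem exists_form {G : Type*} [Group G] [Finite G] {m : ℕ} (hm : 0 < m)
    (A : G →* Matrix (Fin m) (Fin m) ℤ) : ∃ S : Matrix (Fin m) (Fin m) ℤ, Sᵀ = S ∧
      (∀ g, (A g)ᵀ * S * A g = S) ∧ S.map (Int.castRingHom (ZMod 2)) ≠ 0 := by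
  classical
  have := Fintype.ofFinite G
  let i : Fin m := ⟨0, hm⟩
  have h0 : ∃ k : ℕ, ∃ S : Matrix (Fin m) (Fin m) ℤ, Sᵀ = S ∧ (∀ g, (A g)ᵀ * S * A g = S) ∧
      S i i ≠ 0 ∧ (S i i).natAbs = k := by
    refine ⟨_, ∑ g, (A g)ᵀ * A g, by simp [transpose_sum], fun h => ?_, ne_of_gt ?_, rfl⟩
    · rw [Finset.mul_sum, Finset.sum_mul]
      refine Fintype.sum_equiv (Equiv.mulRight h) _ _ fun g => ?_
      simp [Matrix.mul_assoc]
    · rw [Matrix.sum_apply]
      refine Finset.sum_pos' (fun g _ => ?_) ⟨1, Finset.mem_univ _, by simp⟩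
      rw [mul_apply]
      exact Finset.sum_nonneg fun k _ => mul_self_nonneg _
  obtain ⟨S, h1, h2, h3, h4⟩ := Nat.find_spec h0
  refine ⟨S, h1, h2, fun h => ?_⟩
  have h5 : ∀ j k, ∃ c, S j k = 2 * c := fun j k =>
    (ZMod.intCast_zmod_eq_zero_iff_dvd _ 2).1 (congrFun (congrFun h j) k)
  choose T hT using h5
  have h6 : S = (2 : ℤ) • Matrix.of T := by ext j k; simp [hT]
  have inj : ∀ X Y : Matrix (Fin m) (Fin m) ℤ, (2 : ℤ) • X = (2 : ℤ) • Y → X = Y :=
    fun X Y h => smul_right_injective _ (two_ne_zero) h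
  have h7 := hT i i
  refine Nat.find_min h0 (m := (T i i).natAbs) (by omega) ⟨Matrix.of T, inj _ _ ?_, fun g => inj _ _ ?_,
    by simp only [of_apply]; omega, rfl⟩
  · rw [← transpose_smul, ← h6, h1]
  · rw [← h6, ← Matrix.smul_mul, ← Matrix.mul_smul, ← h6, h2]

/-- an integral matrix of order three is not trivial modulo two -/
theorem mod_two_ne_one {m : ℕ} {X : Matrix (Fin m) (Fin m) ℤ} (h3 : X ^ 3 = 1) (h1 : X ≠ 1) :
    X.map (Int.castRingHom (ZMod 2)) ≠ 1 := fun h => h1 <| by
  let f := (Int.castRingHom (ZMod 2)).mapMatrix (m := Fin m)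
  have h4 : (X - 1) * (X ^ 2 + X + 1) = 0 := by
    rw [← sub_eq_zero] at h3
    rw [← h3]; noncomm_ring
  have h5 : f (X ^ 2 + X + 1) = 1 := by
    have : f X = 1 := h
    rw [map_add, map_add, map_pow, this, map_one, one_pow]
    ext i j
    simp only [Matrix.add_apply]
    generalize (1 : Matrix (Fin m) (Fin m) (ZMod 2)) i j = a
    revert a; decide
  have h6 : (X ^ 2 + X + 1).det ≠ 0 := fun h => by
    have := (Int.castRingHom (ZMod 2)).map_det (X ^ 2 + X + 1)
    rw [h, h5, map_zero, det_one] at this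
    exact zero_ne_one this
  have h7 := congrArg (· * (X ^ 2 + X + 1).adjugate) h4
  simp only [Matrix.mul_assoc, mul_adjugate, Matrix.zero_mul, Matrix.mul_smul, Matrix.mul_one] at h7
  exact sub_eq_zero.1 ((smul_eq_zero.1 h7).resolve_left h6)

/-- the integral matrix case -/
theorem exists_char2_int {G : Type*} [Group G] [Finite G] [IsSimpleGroup G] {n : ℕ} (hn : Even n)
    (A : G →* Matrix (Fin (n + 1)) (Fin (n + 1)) ℤ) {x : G} (hx : x ^ 3 = 1) (h1 : A x ≠ 1) :
    ∃ H : Subgroup (GL (Fin n) (ZMod 2)), Nonempty (G ≃* H) := by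
  obtain ⟨S, hS, hinv, hne⟩ := exists_form n.succ_pos A
  let f := (Int.castRingHom (ZMod 2)).mapMatrix (m := Fin (n + 1))
  let V := Fin (n + 1) → ZMod 2
  let ρ : G →* Module.End (ZMod 2) V :=
    (Matrix.toLinAlgEquiv'.toMulEquiv.toMonoidHom.comp f.toMonoidHom).comp A
  have hρ : ∀ g v, ρ g v = f (A g) *ᵥ v := fun g v => rfl
  have hx1 : ρ x ≠ 1 := fun h => mod_two_ne_one (by rw [← map_pow, hx, map_one]) h1
    (Matrix.toLinAlgEquiv'.injective (h.trans (map_one _).symm))
  have hx3 : ρ x ^ 3 = 1 := by rw [← map_pow, hx, map_one]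
  have hS' : (f S)ᵀ = f S := by
    rw [RingHom.mapMatrix_apply, ← transpose_map, hS]
  have hinv' : ∀ g, (f (A g))ᵀ * f S * f (A g) = f S := fun g => by
    conv_rhs => rw [← hinv g, map_mul, map_mul]
    rfl
  have hb : ∀ g v w, ρ g v ⬝ᵥ f S *ᵥ ρ g w = v ⬝ᵥ f S *ᵥ w := fun g v w => by
    rw [hρ, hρ, mulVec_mulVec, ← vecMul_transpose, ← dotProduct_mulVec, mulVec_mulVec,
      ← Matrix.mul_assoc, hinv']
  have hsym : ∀ v w : V, v ⬝ᵥ f S *ᵥ w = w ⬝ᵥ f S *ᵥ v := fun v w => by
    rw [dotProduct_mulVec, ← hS', vecMul_transpose, hS', dotProduct_comm]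
  have hV : finrank (ZMod 2) V = n + 1 := by simp [V]
  let φ : V →ₗ[ZMod 2] ZMod 2 :=
    { toFun := fun v => v ⬝ᵥ f S *ᵥ v
      map_add' := fun v w => by
        rw [mulVec_add, add_dotProduct, dotProduct_add, dotProduct_add, hsym w v]
        generalize v ⬝ᵥ f S *ᵥ v = a, v ⬝ᵥ f S *ᵥ w = b, w ⬝ᵥ f S *ᵥ w = c
        revert a b c; decide
      map_smul' := fun c v => by
        rw [mulVec_smul, smul_dotProduct, dotProduct_smul, RingHom.id_apply]
        generalize v ⬝ᵥ f S *ᵥ v = a
        revert a c; decide }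
  have hφ : ∀ g v, φ (ρ g v) = φ v := fun g v => hb g v v
  have hsub : ∀ U : Submodule (ZMod 2) V, U ≠ ⊤ → finrank (ZMod 2) U ≤ n := fun U hU => by
    have := Submodule.finrank_lt hU
    omega
  by_cases h0 : φ = 0
  · let U := LinearMap.ker (Matrix.toLin' (f S))
    have hU : ∀ g, ∀ v ∈ U, ρ g v ∈ U := fun g v hv => by
      have hv : f S *ᵥ v = 0 := hv
      show f S *ᵥ ρ g v = 0
      refine dotProduct_eq_zero_iff.1 fun w => ?_
      have hw : w = ρ g (ρ g⁻¹ w) := by
        rw [← Module.End.mul_apply, ← map_mul, mul_inv_cancel, map_one]; rfl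
      rw [dotProduct_comm, hw, hb, hv, dotProduct_zero]
    have hU1 : U ≠ ⊤ := fun h => hne (Matrix.toLin'.injective (by
      rw [map_zero]; exact LinearMap.ker_eq_top.1 h))
    have hU2 : U ≠ ⊥ := fun h => by
      have hd : (f S).det = 0 := det_alt hn.add_one S hS fun i => by
        have := LinearMap.congr_fun h0 (Pi.single i 1)
        simpa [φ, f] using this
      obtain ⟨v, hv, hv'⟩ := Matrix.exists_mulVec_eq_zero_iff.2 hd
      exact hv ((Submodule.eq_bot_iff _).1 h v hv')
    by_cases h2 : ∀ v ∈ U, ρ x v = v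
    · refine exists_GL_of_le ?_ (quotHom ρ U hU) ⟨x, fun h => hx1 (eq_one_of_stab hx3 h2 fun v => ?_)⟩
      · have h3 : finrank (ZMod 2) (V ⧸ U) + _ = _ := (U.finrank_quotient_add_finrank).trans hV
        have h4 : finrank (ZMod 2) U ≠ 0 := fun h => hU2 (Submodule.finrank_eq_zero.1 h)
        omega
      · exact (Submodule.Quotient.eq U).1 (LinearMap.congr_fun h (Submodule.Quotient.mk v))
    · exact exists_GL_of_le (hsub U hU1) (subHom ρ U hU)
        ⟨x, fun h => h2 fun v hv => congrArg Subtype.val (LinearMap.congr_fun h ⟨v, hv⟩)⟩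
  · have hU : ∀ g, ∀ v ∈ LinearMap.ker φ, ρ g v ∈ LinearMap.ker φ := fun g v hv => (hφ g v).trans hv
    refine exists_GL_of_le (hsub _ fun h => h0 (LinearMap.ker_eq_top.1 h)) (subHom ρ _ hU)
      ⟨x, fun h => hx1 (eq_one_of_stab hx3 (U := LinearMap.ker φ) (fun v hv =>
        congrArg Subtype.val (LinearMap.congr_fun h ⟨v, hv⟩)) fun v => ?_)⟩
    rw [LinearMap.mem_ker, map_sub, hφ, sub_self]

/-- a finite group of rational matrices preserves a lattice -/
theorem exists_int_rep {G W : Type*} [Group G] [Finite G] [AddCommGroup W] [Module ℚ W]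
    [FiniteDimensional ℚ W] {m : ℕ} (hW : finrank ℚ W = m) (ρ : G →* Module.End ℚ W) :
    ∃ A : G →* Matrix (Fin m) (Fin m) ℤ, ∀ g, A g = 1 → ρ g = 1 := by
  let b := Module.finBasisOfFinrankEq ℚ W hW
  let s : Set W := Set.range fun p : G × Fin m => ρ p.1 (b p.2)
  let L := Submodule.span ℤ s
  have : Submodule.IsLattice ℚ L := ⟨Submodule.fg_span (Set.finite_range _), by
    rw [eq_top_iff, ← b.span_eq]
    refine Submodule.span_mono ?_
    rintro _ ⟨i, rfl⟩
    exact Submodule.subset_span ⟨(1, i), by simp⟩⟩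
  have hL : finrank ℤ L = m := by
    rw [← hW, finrank, Submodule.IsLattice.rank' ℚ L]; rfl
  let ρ' : G →* Module.End ℤ W :=
    { toFun := fun g => (ρ g).restrictScalars ℤ
      map_one' := by rw [map_one]; rfl
      map_mul' := fun g h => by rw [map_mul]; rfl }
  have hU : ∀ g, ∀ v ∈ L, ρ' g v ∈ L := fun g v hv => by
    refine (Submodule.map_span_le (ρ' g) s L).2 ?_ ⟨v, hv, rfl⟩
    rintro _ ⟨p, rfl⟩
    exact Submodule.subset_span ⟨(g * p.1, p.2), by simp [ρ']⟩
  let c := Module.finBasisOfFinrankEq ℤ L hL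
  refine ⟨(LinearMap.toMatrixAlgEquiv c).toMulEquiv.toMonoidHom.comp (subHom ρ' L hU), fun g hg => ?_⟩
  have h1 : subHom ρ' L hU g = 1 := (LinearMap.toMatrixAlgEquiv c).injective (hg.trans (map_one _).symm)
  refine b.ext fun i => ?_
  exact congrArg Subtype.val (LinearMap.congr_fun h1 ⟨b i, Submodule.subset_span ⟨(1, i), by simp⟩⟩)

/-- A simple group of order divisible by three with a nontrivial rational representation of odd
degree `n + 1` embeds in `GL n` over the field with two elements. -/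
theorem exists_char2 {G W : Type} [Group G] [Finite G] [IsSimpleGroup G] [AddCommGroup W]
    [Module ℚ W] [FiniteDimensional ℚ W] (h3 : 3 ∣ Nat.card G) (n : ℕ) (hn : Even n)
    (hW : Module.finrank ℚ W = n + 1) (ρ : Representation ℚ G W) (hρ : ∃ g, ρ g ≠ 1) :
    ∃ H : Subgroup (GL (Fin n) (ZMod 2)), Nonempty (G ≃* H) := by
  have : Fact (Nat.Prime 3) := ⟨Nat.prime_three⟩
  obtain ⟨x, hx⟩ := exists_prime_orderOf_dvd_card' 3 h3
  obtain ⟨A, hA⟩ := exists_int_rep hW ρ
  refine exists_char2_int hn A (x := x) (hx ▸ pow_orderOf_eq_one x) fun h => ?_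
  rcases (MonoidHom.normal_ker ρ).eq_bot_or_eq_top with h1 | h1
  · have : x = 1 := Subgroup.mem_bot.1 (h1 ▸ (MonoidHom.mem_ker).2 (hA x h))
    rw [this, orderOf_one] at hx
    omega
  · obtain ⟨g, hg⟩ := hρ
    exact hg ((MonoidHom.mem_ker).1 (h1 ▸ Subgroup.mem_top g))

end CfsgH6
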