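/-
Configurations of minimal vectors with prescribed inner products with three fixed vectors.
-/
import Cfsg.Agent.H6.Cross

set_option autoImplicit false
set_option linter.unusedSimpArgs false
set_option linter.unusedVariables false

namespace CfsgH6

open CfsgH5 Cfsg Finset

noncomputable section

/-- minimal vectors with given inner products with three vectors -/
def Y3 (a b c : LL) (p q r : ℤ) : Set LL :=
  {x | sqNorm (x : V) = 32 ∧ dotInt (a : V) x = p ∧ dotInt (b : V) x = q ∧ dotInt (c : V) x = r}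

theorem smul_mem_Y3 (g : Co0) {a b c x : LL} {p q r : ℤ} :
    g • x ∈ Y3 (g • a) (g • b) (g • c) p q r ↔ x ∈ Y3 a b c p q r := by
  simp only [Y3, Set.mem_ofPred_eq, co_norm, co_dot]

/-- the configuration has `n` members and is an orbit of the stabiliser of the three vectors -/
def Good (a b c : LL) (p q r : ℤ) (n : ℕ) : Prop :=
  (Y3 a b c p q r).ncard = n ∧ ∀ x ∈ Y3 a b c p q r, ∀ y ∈ Y3 a b c p q r,
    ∃ g : Co0, g • a = a ∧ g • b = b ∧ g • c = c ∧ g • x = y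

theorem Good.of_smul (g : Co0) {a b c a' b' c' : LL} {p q r : ℤ} {n : ℕ} (ha : g • a = a')
    (hb : g • b = b') (hc : g • c = c') (h : Good a' b' c' p q r n) : Good a b c p q r n := by
  subst ha hb hc
  refine ⟨(ncard_smul g fun x => (smul_mem_Y3 g).symm).trans h.1, fun x hx y hy => ?_⟩
  obtain ⟨k, h1, h2, h3, h4⟩ := h.2 _ ((smul_mem_Y3 g).2 hx) _ ((smul_mem_Y3 g).2 hy)
  exact ⟨g⁻¹ * k * g, by simp [mul_smul, h1], by simp [mul_smul, h2], by simp [mul_smul, h3],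
    by simp [mul_smul, h4]⟩

theorem Good.orbit {a b c : LL} {p q r : ℤ} {n : ℕ} (h : Good a b c p q r n) {H : Subgroup Co0}
    (hH : ∀ g, g ∈ H ↔ g • a = a ∧ g • b = b ∧ g • c = c) {y : LL} (hy : y ∈ Y3 a b c p q r) :
    MulAction.orbit H y = Y3 a b c p q r := by
  ext x
  constructor
  · rintro ⟨⟨g, hg⟩, rfl⟩
    obtain ⟨h1, h2, h3⟩ := (hH g).1 hg
    rw [← h1, ← h2, ← h3]
    exact (smul_mem_Y3 g).2 hy
  · intro hx
    obtain ⟨g, h1, h2, h3, h4⟩ := h.2 y hy x hx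
    exact ⟨⟨g, (hH g).2 ⟨h1, h2, h3⟩⟩, h4⟩

theorem Good.nonempty {a b c : LL} {p q r : ℤ} {n : ℕ} (h : Good a b c p q r n) (hn : n ≠ 0) :
    (Y3 a b c p q r).Nonempty := Set.nonempty_of_ncard_ne_zero (h.1 ▸ hn)

/-- `T` is a table of the minimal vectors with inner product `p` with the vector coded by `a` -/
def Tab (a : ℕ) (p : ℤ) (T N d : ℕ) : Prop :=
  ∀ f : ℕ → ℕ, ∑ x ∈ L2F.filter (fun x => dotInt (vec a : V) x = p), f (enc x) = sumT T N f d 0

theorem tab_of {a T N d t : ℕ} {p : ℤ} {κ : ℕ → ℕ}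
    (hκ : ∀ x ∈ L2, κ (enc x) = t ↔ dotInt (vec a : V) x = p) (h : okT T N κ t = true)
    (hc : (L2F.filter fun x => κ (enc x) = t).card = N) (hd : N ≤ 2 ^ d) : Tab a p T N d := by
  intro f
  rw [← sum_table h hc hd f, filter_congr fun x hx => hκ x (mem_L2F.1 hx)]

/-- the first two inner products -/
def pf (P n : ℕ) : ℕ := Nat.land (mvraw P n) 4294967295

theorem pf_eq {P : ℕ} (hP : okMat P = true) {x : V} (hx : Bd 8 x) :
    (pf P (enc x) : ℤ) = dotInt (dec (rowEnc P 0)) x + 2048 +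
      65536 * (dotInt (dec (rowEnc P 1)) x + 2048) ∧
      -2048 ≤ dotInt (dec (rowEnc P 0)) x ∧ dotInt (dec (rowEnc P 0)) x < 63488 := by
  have h0 := dg_mvraw hP hx (j := 0) (by norm_num)
  have h1 := dg_mvraw hP hx (j := 1) (by norm_num)
  rw [dg_eq] at h0 h1
  have : pf P (enc x) = mvraw P (enc x) % 2 ^ 32 := Nat.and_two_pow_sub_one_eq_mod _ 32
  rw [this]
  generalize mvraw P (enc x) = m at *
  omega

/-- position in a list -/
def idxF (l : List ℕ) (m : ℕ) : ℕ → ℕ :=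
  List.rec (motive := fun _ => ℕ → ℕ) (fun _ => 14)
    (fun a _ ih k => bif' (Nat.beq a m) k (ih (Nat.succ k))) l

theorem idxF_spec (l : List ℕ) (m k : ℕ) (h : idxF l m k ≠ 14) :
    k ≤ idxF l m k ∧ l.getD (idxF l m k - k) 0 = m := by
  induction l generalizing k with
  | nil => exact absurd rfl h
  | cons a l ih =>
    have e : idxF (a :: l) m k = bif' (Nat.beq a m) k (idxF l m (k + 1)) := rfl
    rw [e, bif'_eq] at h ⊢
    split_ifs at h ⊢ with h1
    · simpa using h1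
    · obtain ⟨h2, h3⟩ := ih _ h
      refine ⟨by omega, ?_⟩
      rw [show idxF l m (k + 1) - k = idxF l m (k + 1) - (k + 1) + 1 by omega, List.getD_cons_succ, h3]

/-- the class of a code -/
def cls (P : ℕ) (pvs : List ℕ) (n : ℕ) : ℕ := force (pf P n) fun m => idxF pvs m 0

/-- the descent test outside the residual class -/
def dnC (gs rs : List ℕ) (d c n : ℕ) : Bool := bor (Nat.beq c 14) (down gs [] rs d n)

/-- the data of a configuration are consistent -/
def okCfg (a b c P : ℕ) (gs pvs reps rs : List ℕ) (low : List (ℕ × List ℕ)) : Bool :=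
  band (okMat P) <| band (Nat.beq (rowEnc P 0) b) <| band (Nat.beq (rowEnc P 1) c) <|
  band (fixes [a, b, c] gs) <| band (linkL gs reps low) <|
  band (decide (rs = low.map Prod.fst)) <| band (Nat.ble reps.length 14) <|
  allLt reps.length fun i => force (nthD reps 0 i) fun r => band (okV r) <|
    band (Nat.beq (cls P pvs r) i) (Nat.beq (idxF pvs (nthD pvs 0 i) 0) i)

theorem cfg_spec {a b c P T N d e S : ℕ} {p : ℤ} {gs pvs reps rs : List ℕ}
    {low : List (ℕ × List ℕ)} (hT : Tab a p T N d) (hg : ∀ s ∈ gs, In ⊤ s)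
    (h : okCfg a b c P gs pvs reps rs low = true)
    (hS : sumT T N (wt (cls P pvs) (dnC gs rs e)) d 0 = S) (h15 : DW S 15 = 0) (i : ℕ) (q r : ℤ)
    (hi : i < reps.length ∧ (nthD pvs 0 i : ℤ) = q + 2048 + 65536 * (r + 2048) ∧ -2048 ≤ q ∧ q < 63488) :
    (Y3 (vec a) (vec b) (vec c) p q r).ncard = DW S i ∧ ∀ x ∈ Y3 (vec a) (vec b) (vec c) p q r,
      ∃ g : Co0, g • vec a = vec a ∧ g • vec b = vec b ∧ g • vec c = vec c ∧
        g • x = vec (nthD reps 0 i) := by
  simp only [okCfg, band_eq, Bool.and_eq_true, beq_true_iff, ble_true_iff, allLt_iff, force_eq,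
    decide_eq_true_eq] at h
  obtain ⟨hP, hb, hc, hf, hl, hrs, h14, hr⟩ := h
  have hv := in_Fix hg hf
  simp only [fixes, band_eq, Bool.and_eq_true, allL_iff, List.mem_cons, List.not_mem_nil, or_false,
    forall_eq_or_imp, forall_eq] at hf
  obtain ⟨⟨va, vb, vc⟩, -⟩ := hf
  have hpf : ∀ x : V, Bd 8 x → (pf P (enc x) : ℤ) = dotInt (vec b : V) x + 2048 +
      65536 * (dotInt (vec c : V) x + 2048) ∧
      -2048 ≤ dotInt (vec b : V) x ∧ dotInt (vec b : V) x < 63488 := fun x hx => by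
    have := pf_eq hP hx
    rwa [hb, hc, ← coe_vec (okV_inL vb), ← coe_vec (okV_inL vc)] at this
  obtain ⟨k1, k2⟩ := pass_spec (filter_subset _ _) ((hT _).trans hS) h15
  have hcls : ∀ x : V, Bd 8 x →
      (cls P pvs (enc x) = i ↔ dotInt (vec b : V) x = q ∧ dotInt (vec c : V) x = r) := fun x hx => by
    have h1 := hpf x hx
    rw [cls, force_eq]
    constructor
    · intro h2
      have := (idxF_spec pvs (pf P (enc x)) 0 (by omega)).2
      rw [h2, Nat.sub_zero, ← nthD_eq] at this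
      omega
    · intro h2
      have : pf P (enc x) = nthD pvs 0 i := by omega
      rw [this, (hr i hi.1).2.2]
  have hfix : ∀ g ∈ Fix [a, b, c], g • vec a = vec a ∧ g • vec b = vec b ∧ g • vec c = vec c :=
    fun g hg => ⟨hg a (by simp), hg b (by simp), hg c (by simp)⟩
  have hinv : ∀ g ∈ Fix [a, b, c], ∀ v ∈ Y3 (vec a) (vec b) (vec c) p q r,
      g • v ∈ Y3 (vec a) (vec b) (vec c) p q r := fun g hg v hv => by
    obtain ⟨h1, h2, h3⟩ := hfix g hg
    rw [← h1, ← h2, ← h3]; exact (smul_mem_Y3 g).2 hv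
  constructor
  · rw [← k2 i]
    refine ncard_LL _ _ fun x => ?_
    simp only [mem_filter, mem_L2F, Y3, Set.mem_ofPred_eq]
    constructor
    · rintro ⟨⟨h1, h2⟩, h3⟩
      exact ⟨h1.1, h1.2, h2, (hcls x (L2_bd h1)).1 h3⟩
    · rintro ⟨h1, h2, h3, h4⟩
      exact ⟨⟨⟨h1, h2⟩, h3⟩, (hcls x (L2_bd ⟨h1, h2⟩)).2 h4⟩
  · intro x hx
    obtain ⟨g, hg, h1⟩ := down_sound hv (es := []) (rs := rs) (d := e) (by simp) hinv
      (fun v hv => by rw [hv.1]; norm_num) (fun v hv => by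
        have h1 := k1 v (mem_filter.2 ⟨mem_L2F.2 ⟨v.2, hv.1⟩, hv.2.1⟩)
        rw [(hcls v (L2_bd ⟨v.2, hv.1⟩)).2 hv.2.2, dnC, bor_eq, Bool.or_eq_true, beq_true_iff] at h1
        exact h1.resolve_left (by omega)) x hx
    obtain ⟨g', hg', h2⟩ := linkL_sound hv hl (v := g • x) (by rw [co_norm, hx.1]; norm_num) (hrs ▸ h1)
    have h3 := hinv g' hg' _ (hinv g hg x hx)
    have hb : Bd 8 ((g' • g • x : LL) : V) := L2_bd ⟨(g' • g • x).2, h3.1⟩
    obtain ⟨j, hj, h4⟩ := List.getElem_of_mem h2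
    have h5 : nthD reps 0 j = enc ((g' • g • x : LL) : V) := by
      rw [nthD_eq, List.getD_eq_getElem _ _ hj, h4]
    have h6 := (hr j hj).2.1
    rw [h5, (hcls _ hb).2 h3.2.2] at h6
    subst h6
    obtain ⟨h7, h8, h9⟩ := hfix _ (Subgroup.mul_mem _ hg' hg)
    exact ⟨g' * g, h7, h8, h9, by rw [mul_smul]; exact eq_vec (okV_inL (hr i hj).1) hb h5.symm⟩

theorem good_of {a b c z : LL} {p q r : ℤ} {n : ℕ}
    (h : (Y3 a b c p q r).ncard = n ∧ ∀ x ∈ Y3 a b c p q r,
      ∃ g : Co0, g • a = a ∧ g • b = b ∧ g • c = c ∧ g • x = z) : Good a b c p q r n := by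
  refine ⟨h.1, fun x hx y hy => ?_⟩
  obtain ⟨g, h1, h2, h3, h4⟩ := h.2 x hx
  obtain ⟨k, h5, h6, h7, h8⟩ := h.2 y hy
  exact ⟨k⁻¹ * g, by rw [mul_smul, h1, inv_smul_eq_iff, h5], by rw [mul_smul, h2, inv_smul_eq_iff, h6],
    by rw [mul_smul, h3, inv_smul_eq_iff, h7], by rw [mul_smul, h4, inv_smul_eq_iff, h8]⟩

end

end CfsgH6
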