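/-
Elements of the automorphism group of the lattice given by coded matrices; orbit descent.
-/
import Cfsg.Agent.H6.Enum

set_option autoImplicit false
set_option linter.unusedSimpArgs false
set_option linter.unusedVariables false

namespace CfsgH6

open CfsgH5 Cfsg Finset

noncomputable section

/-! ### Basic facts on the automorphism group -/

theorem co_add (g : Co0) (v w : LL) : g • (v + w) = g • v + g • w := g.2.1 v w

theorem co_norm (g : Co0) (v : LL) : sqNorm ((g • v : LL) : V) = sqNorm (v : V) := g.2.2 v

/-- an automorphism as an additive map -/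
def coHom (g : Co0) : LL →+ LL := AddMonoidHom.mk' (fun v => g • v) (co_add g)

theorem co_zero (g : Co0) : g • (0 : LL) = 0 := (coHom g).map_zero
theorem co_neg (g : Co0) (v : LL) : g • (-v) = -(g • v) := (coHom g).map_neg v
theorem co_sub (g : Co0) (v w : LL) : g • (v - w) = g • v - g • w := (coHom g).map_sub v w
theorem co_zsmul (g : Co0) (c : ℤ) (v : LL) : g • (c • v) = c • (g • v) := (coHom g).map_zsmul c v
theorem co_nsmul (g : Co0) (c : ℕ) (v : LL) : g • (c • v) = c • (g • v) := (coHom g).map_nsmul c v
theorem co_sum (g : Co0) {ι : Type*} (s : Finset ι) (f : ι → LL) :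
    g • (∑ i ∈ s, f i) = ∑ i ∈ s, g • f i := map_sum (coHom g) f s

theorem co_dot (g : Co0) (v w : LL) :
    dotInt ((g • v : LL) : V) ((g • w : LL) : V) = dotInt (v : V) (w : V) := by
  have h := co_norm g (v + w)
  rw [co_add, AddSubgroup.coe_add, AddSubgroup.coe_add, sqNorm_add, sqNorm_add, co_norm, co_norm] at h
  omega

theorem co_dot_fix {g : Co0} {v : LL} (h : g • v = v) (w : LL) :
    dotInt (v : V) ((g • w : LL) : V) = dotInt (v : V) (w : V) := by
  nth_rewrite 1 [← h]; exact co_dot g v w

theorem co_ext {g h : Co0} (e : ∀ v : LL, g • v = h • v) : g = h :=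
  Subtype.ext (Equiv.ext e)

/-- an additive norm-preserving map of the lattice into itself is an automorphism -/
theorem exists_co (f : LL → LL) (hadd : ∀ v w, f (v + w) = f v + f w)
    (hn : ∀ v, sqNorm ((f v : LL) : V) = sqNorm (v : V)) : ∃ g : Co0, ∀ v, g • v = f v := by
  let F : LL →+ LL := AddMonoidHom.mk' f hadd
  have hinj : Function.Injective f := by
    refine (injective_iff_map_eq_zero F).2 fun v hv => ?_
    have := hn v
    rw [show f v = 0 from hv] at this
    exact Subtype.ext (eq_zero_of_sqNorm (by rw [← this]; simp [sqNorm]))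
  have hsurj : Function.Surjective f := by
    let S : Set LL := {v | sqNorm (v : V) = 32}
    have hS : S.Finite := (L2_finite.preimage Subtype.val_injective.injOn).subset
      fun v hv => ⟨v.2, hv⟩
    have hmaps : Set.MapsTo f S S := fun v hv => (hn v).trans hv
    have hsur := (hS.injOn_iff_bijOn_of_mapsTo hmaps).1 hinj.injOn
    have : ∀ x ∈ leechLattice, x ∈ F.range.map leechLattice.subtype := by
      have h : leechLattice ≤ F.range.map leechLattice.subtype := by
        nth_rewrite 1 [← closure_L2]
        rw [AddSubgroup.closure_le]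
        intro x hx
        obtain ⟨w, -, hw⟩ := hsur.surjOn (show (⟨x, hx.1⟩ : LL) ∈ S from hx.2)
        exact ⟨_, ⟨w, hw⟩, rfl⟩
      exact h
    intro v
    obtain ⟨w, ⟨u, hu⟩, hw⟩ := this v v.2
    exact ⟨u, hu.trans (Subtype.ext hw)⟩
  exact ⟨⟨Equiv.ofBijective f ⟨hinj, hsurj⟩, hadd, hn⟩, fun _ => rfl⟩

/-- negation -/
theorem exists_neg : ∃ g : Co0, ∀ v : LL, g • v = -v :=
  exists_co (fun v => -v) (fun v w => neg_add v w) fun v => sqNorm_neg _

/-! ### Membership test -/

/-- membership test for the lattice on codes -/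
def inL (n : ℕ) : Bool :=
  force (Nat.land n 1) fun m =>
  force (orLt 24 fun i => Nat.shiftLeft (bit (dg n i) 1) i) fun c =>
  band (Nat.blt n (Nat.pow 65536 24)) <| band (isC c) <|
  band (Nat.beq (Nat.mod (Nat.mod n 65535) 8) (Nat.mul 4 m)) <|
  allL R24 fun i => force (dg n i) fun d =>
    band (Nat.ble d 16) (Nat.beq (Nat.mod d 4) (Nat.add m (Nat.mul 2 (bit c i))))

theorem mod_eq' (a b : ℕ) : Nat.mod a b = a % b := rfl

theorem mem_R24 {i : ℕ} : i ∈ R24 ↔ i < 24 := by rw [R24_eq, List.mem_range]

theorem inL_spec {n : ℕ} (h : inL n = true) :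
    n < 65536 ^ 24 ∧ Bd 8 (dec n) ∧ dec n ∈ leechLattice := by
  simp only [inL, force_eq, band_eq, Bool.and_eq_true, blt_true_iff, beq_true_iff, allL_iff,
    ble_true_iff, mem_R24, Nat.pow_eq, Nat.mul_eq, Nat.add_eq, mod_eq'] at h
  generalize (orLt 24 fun i => Nat.shiftLeft (bit (dg n i) 1) i) = c at h
  generalize Nat.land n 1 = m at h
  obtain ⟨h1, h2, h3, h4⟩ := h
  refine ⟨h1, fun i => ?_, mem_leech_iff.2 ⟨m, ts c, by rwa [mem_Sup, mk_ts (isC_lt h2)],
    fun i => ?_, ?_⟩⟩
  · have := (h4 _ (pn_lt i)).1
    simp only [dec, decB]; omega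
  · have := (h4 _ (pn_lt i)).2
    rw [bit_eq] at this
    simp only [dec, decB, Enc.mem_toSet]
    split_ifs at * <;> omega
  · have h5 : n % 65535 = ∑ k ∈ range 24, dg n k := by
      nth_rewrite 1 [← ev_dg h1]
      rw [ev_mod, Nat.mod_eq_of_lt]
      calc _ ≤ ∑ _k ∈ range 24, 16 := sum_le_sum fun k hk => (h4 k (mem_range.1 hk)).1
        _ < 65535 := by simp
    have h6 : ∑ i, dec n i = (∑ k ∈ range 24, dg n k : ℕ) - 192 := by
      rw [sum_pt]
      push_cast
      rw [show (192 : ℤ) = ∑ _k ∈ range 24, 8 by simp, ← sum_sub_distrib]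
      exact sum_congr rfl fun k hk => by simp [dec, decB, pn_pt (mem_range.1 hk)]
    rw [h6, ← h5]; omega

/-- the lattice vector with a given code -/
def vec (n : ℕ) : LL := if h : inL n = true then ⟨dec n, (inL_spec h).2.2⟩ else 0

theorem coe_vec {n : ℕ} (h : inL n = true) : (vec n : V) = dec n := by rw [vec, dif_pos h]

theorem enc_vec {n : ℕ} (h : inL n = true) : enc (vec n : V) = n := by
  rw [coe_vec h, enc_dec (inL_spec h).1]

theorem eq_vec {n : ℕ} (h : inL n = true) {v : LL} (hv : Bd 8 (v : V)) (e : enc (v : V) = n) :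
    v = vec n := Subtype.ext (by rw [coe_vec h, ← e, dec_enc hv])

/-! ### Coded automorphisms -/

/-- the matrix coded by `a` is eight times the matrix of `g` -/
def Rep (a : ℕ) (g : Co0) : Prop :=
  okMat a = true ∧ ∀ v : LL, (matOf a).mulVec (v : V) = (8 : ℤ) • ((g • v : LL) : V)

theorem Rep.act {a : ℕ} {g : Co0} (h : Rep a g) (v : LL) (hv : sqNorm (v : V) ≤ 64) :
    act a (enc (v : V)) = enc ((g • v : LL) : V) :=
  act_enc h.1 (bd_of_sqNorm hv) (bd_of_sqNorm (by rwa [co_norm])) (h.2 v)

theorem Rep.smul_eq {a : ℕ} {g : Co0} (h : Rep a g) {v w : LL} (hv : sqNorm (v : V) ≤ 64)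
    (hw : Bd 8 (w : V)) (e : CfsgH6.act a (enc (v : V)) = enc (w : V)) : g • v = w := by
  rw [h.act v hv] at e
  exact Subtype.ext (enc_inj (bd_of_sqNorm (by rwa [co_norm])) hw e)

theorem Rep.unique {a : ℕ} {g h : Co0} (hg : Rep a g) (hh : Rep a h) : g = h :=
  co_ext fun v => Subtype.ext (smul_right_injective V (by norm_num : (8 : ℤ) ≠ 0)
    ((hg.2 v).symm.trans (hh.2 v)))

/-- codes of the standard generators of the lattice -/
def genCodes : List ℕ := [0x500090009000900090009000900090009000900090009000900090009000900090009000900090009000900090009,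
  0xa000a000800080008000a000a000a0008000a0008000a00080008000800080008000800080008000800080008000a,
  0x8000a00080008000a00080008000a000a000a000a000a0008000800080008000800080008000800080008000a0008,
  0xa000a0008000a0008000a00080008000a0008000a000a000800080008000800080008000800080008000a00080008,
  0x8000a000a0008000a000a000a000800080008000a000a00080008000800080008000800080008000a000800080008,
  0xa00080008000a000a0008000a000a00080008000a000a0008000800080008000800080008000a0008000800080008,
  0xa0008000a000a0008000a000a00080008000a000a0008000800080008000800080008000a00080008000800080008,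
  0xa000a000a0008000a000a00080008000a000a0008000800080008000800080008000a000800080008000800080008,
  0x800080008000a000a000a000a0008000a000a0008000a0008000800080008000a0008000800080008000800080008,
  0x80008000a000a000a000a0008000a000a0008000a0008000800080008000a00080008000800080008000800080008,
  0x8000a000a000a000a0008000a000a0008000a0008000800080008000a000800080008000800080008000800080008,
  0xa0008000a000a000800080008000a000a000a0008000a0008000a0008000800080008000800080008000800080008,
  0xa000a000a000800080008000a000a000a0008000a0008000a00080008000800080008000800080008000800080008,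
  0xc0008000800080008000800080008000800080008000800080008000800080008000800080008000800080008000c,
  0xc000800080008000800080008000800080008000800080008000800080008000800080008000800080008000c0008,
  0xc00080008000800080008000800080008000800080008000800080008000800080008000800080008000c00080008,
  0xc0008000800080008000800080008000800080008000800080008000800080008000800080008000c000800080008,
  0xc000800080008000800080008000800080008000800080008000800080008000800080008000c0008000800080008,
  0xc00080008000800080008000800080008000800080008000800080008000800080008000c00080008000800080008,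
  0xc0008000800080008000800080008000800080008000800080008000800080008000c000800080008000800080008,
  0xc000800080008000800080008000800080008000800080008000800080008000c0008000800080008000800080008,
  0xc00080008000800080008000800080008000800080008000800080008000c00080008000800080008000800080008,
  0xc0008000800080008000800080008000800080008000800080008000c000800080008000800080008000800080008,
  0xc000800080008000800080008000800080008000800080008000c0008000800080008000800080008000800080008,
  0xc00080008000800080008000800080008000800080008000c00080008000800080008000800080008000800080008,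
  0xc0008000800080008000800080008000800080008000c000800080008000800080008000800080008000800080008,
  0xc000800080008000800080008000800080008000c0008000800080008000800080008000800080008000800080008,
  0xc00080008000800080008000800080008000c00080008000800080008000800080008000800080008000800080008,
  0xc0008000800080008000800080008000c000800080008000800080008000800080008000800080008000800080008,
  0xc000800080008000800080008000c0008000800080008000800080008000800080008000800080008000800080008,
  0xc00080008000800080008000c00080008000800080008000800080008000800080008000800080008000800080008,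
  0xc0008000800080008000c000800080008000800080008000800080008000800080008000800080008000800080008,
  0xc000800080008000c0008000800080008000800080008000800080008000800080008000800080008000800080008,
  0xc00080008000c00080008000800080008000800080008000800080008000800080008000800080008000800080008,
  0xc0008000c000800080008000800080008000800080008000800080008000800080008000800080008000800080008,
  0xc000c0008000800080008000800080008000800080008000800080008000800080008000800080008000800080008,
  0x1000080008000800080008000800080008000800080008000800080008000800080008000800080008000800080008]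

theorem gen_odd : ∃ n ∈ genCodes, dec n = odd0 := by decide +kernel
theorem gen_two : ∀ b ∈ basisW, ∃ n ∈ genCodes, dec n = two (ts b) := by
  have : ∀ b ∈ basisW, ∃ n ∈ genCodes, ∀ i, dec n i = if b.testBit (pn i) then 2 else 0 := by
    decide +kernel
  intro b hb
  obtain ⟨n, hn, h⟩ := this b hb
  exact ⟨n, hn, funext fun i => by simp [h, two]⟩
theorem gen_four : ∀ i, ∃ n ∈ genCodes, dec n = four i := by decide +kernel
theorem gen_inL : ∀ n ∈ genCodes, inL n = true := (allL_iff _ _).1 (by decide +kernel)

/-- row `j` of a coded matrix -/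
def rowEnc (a j : ℕ) : ℕ := evK 24 fun i => dg a (Nat.sub (Nat.add (Nat.mul 25 j) 25) i)

theorem rowEnc_eq {a : ℕ} (j : GolayPt) : rowEnc a (pn j) = enc (matOf a j) := by
  rw [rowEnc, evK_eq, enc, encB]
  refine ev_congr fun k hk => ?_
  simp [matOf, pn_pt hk]

/-- the test that a code gives an automorphism of the lattice -/
def okCo (a : ℕ) : Bool :=
  band (okMat a) <|
  band (allL R24 fun j => forceH (rowEnc a j) fun r =>
    Nat.beq (mvraw a r) (Nat.add (Nat.mul 2048 ONES) (U 64 j))) <|
  allL genCodes fun n => forceH (act a n) fun m =>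
    band (Nat.beq (mvraw a n) (Nat.add (Nat.mul 8 m) (Nat.mul 1984 ONES))) (inL m)

theorem encB_single (j : GolayPt) : 2048 * ONES + U 64 (pn j) = encB 2048 (Pi.single j 64) := by
  have hb : Bd 2048 (Pi.single j 64 : V) := fun i => by
    rw [Pi.single_apply]; split_ifs <;> omega
  apply Nat.cast_injective (R := ℤ)
  rw [cast_encB hb, ONES_eq, U_eq]
  push_cast
  simp only [add_mul, sum_add_distrib, mul_sum]
  rw [add_comm]
  refine congrArg₂ (· + ·) ?_ rfl
  rw [sum_eq_single (pn j)]
  · simp [pt_pn]
  · intro k hk hne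
    rw [Pi.single_apply, if_neg, zero_mul]
    intro h; exact hne (by rw [← h, pn_pt (mem_range.1 hk)])
  · intro h; exact absurd (mem_range.2 (pn_lt j)) h

theorem encB_eight {y : V} (hy : Bd 8 y) : 8 * enc y + 1984 * ONES = encB 2048 ((8 : ℤ) • y) := by
  have hb : Bd 2048 ((8 : ℤ) • y) := fun i => by
    have := hy i; simp only [Pi.smul_apply, smul_eq_mul]; omega
  apply Nat.cast_injective (R := ℤ)
  rw [cast_encB hb, ONES_eq]
  push_cast
  rw [enc, cast_encB hy, mul_sum, mul_sum, ← sum_add_distrib]
  exact sum_congr rfl fun k _ => by simp only [Pi.smul_apply, smul_eq_mul]; ring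

theorem transpose_mul_of {A : Matrix GolayPt GolayPt ℤ} (h : A * A.transpose = (64 : ℤ) • 1) :
    A.transpose * A = (64 : ℤ) • 1 := by
  let B : Matrix GolayPt GolayPt ℚ := A.map (Int.castRingHom ℚ)
  have h1 : B * ((1 / 64 : ℚ) • B.transpose) = 1 := by
    have := congrArg (fun M => M.map (Int.castRingHom ℚ)) h
    simp only [Matrix.map_mul] at this
    rw [Matrix.mul_smul, show B.transpose = A.transpose.map (Int.castRingHom ℚ) from rfl, this]
    ext i j
    simp only [Matrix.smul_apply, Matrix.map_apply, Matrix.one_apply]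
    split_ifs <;> simp
  have h2 := mul_eq_one_comm.1 h1
  ext i j
  have h3 := congrFun (congrFun h2 i) j
  apply Int.cast_injective (α := ℚ)
  simp only [Matrix.smul_mul, Matrix.smul_apply, Matrix.mul_apply, Matrix.transpose_apply, B,
    Matrix.map_apply, eq_intCast, smul_eq_mul, Matrix.one_apply] at h3 ⊢
  push_cast
  simp only [mul_assoc, ← mul_sum] at h3
  split_ifs at * <;> linarith

theorem sqNorm_mulVec {A : Matrix GolayPt GolayPt ℤ} (h : A.transpose * A = (64 : ℤ) • 1) (x : V) :
    sqNorm (A.mulVec x) = 64 * sqNorm x := by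
  rw [sqNorm_eq_dot, sqNorm_eq_dot]
  show dotProduct _ _ = 64 * dotProduct x x
  rw [Matrix.dotProduct_mulVec, Matrix.vecMul_mulVec, h]
  simp [Matrix.vecMul_smul, mul_comm]

theorem exists_rep {a : ℕ} (h : okCo a = true) : ∃ g, Rep a g := by
  simp only [okCo, forceH_eq, band_eq, Bool.and_eq_true, beq_true_iff, allL_iff, mem_R24,
    Nat.mul_eq, Nat.add_eq] at h
  obtain ⟨ha, h1, h2⟩ := h
  have hA : matOf a * (matOf a).transpose = (64 : ℤ) • 1 := by
    ext i j
    have h3 := h1 _ (pn_lt j)
    have hb : Bd 8 (matOf a j) := matOf_bd ha j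
    rw [rowEnc_eq, mvraw_enc ha hb, encB_single] at h3
    have h4 := congrFun (encB_inj (by norm_num) ((mulVec_bd ha hb).mono (by norm_num))
      (fun i => by rw [Pi.single_apply]; split_ifs <;> omega) h3) i
    rw [Pi.single_apply] at h4
    simpa [Matrix.mul_apply, Matrix.one_apply, Matrix.mulVec, dotProduct] using h4
  let K : AddSubgroup V :=
    { carrier := {x | ∃ y ∈ leechLattice, (matOf a).mulVec x = (8 : ℤ) • y}
      zero_mem' := ⟨0, zero_mem _, by simp⟩
      add_mem' := by
        rintro x y ⟨x', hx', hx⟩ ⟨y', hy', hy⟩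
        exact ⟨x' + y', add_mem hx' hy', by rw [Matrix.mulVec_add, hx, hy, smul_add]⟩
      neg_mem' := by
        rintro x ⟨x', hx', hx⟩
        exact ⟨-x', neg_mem hx', by rw [Matrix.mulVec_neg, hx, smul_neg]⟩ }
  have hg : ∀ n ∈ genCodes, dec n ∈ K := by
    intro n hn
    obtain ⟨k1, k2⟩ := h2 n hn
    have k3 := inL_spec (gen_inL n hn)
    have k4 := inL_spec k2
    refine ⟨_, k4.2.2, ?_⟩
    rw [← enc_dec k4.1, encB_eight k4.2.1] at k1
    nth_rewrite 1 [← enc_dec k3.1] at k1
    rw [mvraw_enc ha k3.2.1] at k1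
    refine encB_inj (by norm_num) ((mulVec_bd ha k3.2.1).mono (by norm_num)) (fun i => ?_) k1
    have := k4.2.1 i
    simp only [Pi.smul_apply, smul_eq_mul]; omega
  have hK : leechLattice ≤ K := by
    refine leech_le ?_ (fun b hb => ?_) fun i => ?_
    · obtain ⟨n, hn, e⟩ := gen_odd; exact e ▸ hg n hn
    · obtain ⟨n, hn, e⟩ := gen_two b hb; exact e ▸ hg n hn
    · obtain ⟨n, hn, e⟩ := gen_four i; exact e ▸ hg n hn
  choose f hf1 hf2 using fun v : LL => hK v.2
  have h8 : (8 : ℤ) ≠ 0 := by norm_num
  obtain ⟨g, hg⟩ := exists_co (fun v => ⟨f v, hf1 v⟩) (fun v w => by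
    apply Subtype.ext
    apply smul_right_injective V h8
    simp only [AddSubgroup.coe_add, smul_add, ← hf2, Matrix.mulVec_add]) (fun v => by
    have := sqNorm_mulVec (transpose_mul_of hA) v
    rw [hf2, sqNorm_smul] at this
    show sqNorm (f v) = _
    omega)
  exact ⟨g, ha, fun v => by rw [hg, hf2]⟩

/-- `a` codes an element of `H` -/
def In (H : Subgroup Co0) (a : ℕ) : Prop := ∃ g ∈ H, Rep a g

theorem In.mono {H K : Subgroup Co0} (h : H ≤ K) {a : ℕ} (ha : In H a) : In K a := by
  obtain ⟨g, hg, hr⟩ := ha; exact ⟨g, h hg, hr⟩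

theorem in_top {a : ℕ} (h : okCo a = true) : In ⊤ a := by
  obtain ⟨g, hg⟩ := exists_rep h; exact ⟨g, trivial, hg⟩

/-- the pointwise stabiliser of a list of coded vectors -/
def Fix (bs : List ℕ) : Subgroup Co0 where
  carrier := {g | ∀ b ∈ bs, g • vec b = vec b}
  one_mem' := fun _ _ => one_smul _ _
  mul_mem' := fun {g h} hg hh b hb => by rw [mul_smul, hh b hb, hg b hb]
  inv_mem' := fun {g} hg b hb => by rw [inv_smul_eq_iff, hg b hb]

theorem mem_Fix {bs : List ℕ} {g : Co0} : g ∈ Fix bs ↔ ∀ b ∈ bs, g • vec b = vec b := Iff.rfl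

/-- the norm of a coded vector -/
def nrm (n : ℕ) : ℕ := sumL R24 fun i => force (dg n i) fun d =>
  bif' (Nat.ble 8 d) (Nat.mul (Nat.sub d 8) (Nat.sub d 8)) (Nat.mul (Nat.sub 8 d) (Nat.sub 8 d))

theorem nrm_eq (n : ℕ) : (nrm n : ℤ) = sqNorm (dec n) := by
  rw [nrm, sumL_eq, R24_eq, list_sum_range, sqNorm, sum_pt]
  push_cast
  refine sum_congr rfl fun k hk => ?_
  simp only [force_eq, bif'_eq, ble_true_iff, dec, decB, pn_pt (mem_range.1 hk), Nat.mul_eq, Nat.sub_eq]
  split_ifs with h
  · push_cast [h]; ring
  · have : dg n k ≤ 8 := by omega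
    push_cast [this]; ring

/-- a coded lattice vector of norm at most 64 -/
def okV (n : ℕ) : Bool := band (inL n) (Nat.ble (nrm n) 64)

theorem okV_inL {n : ℕ} (h : okV n = true) : inL n = true := by
  simp only [okV, band_eq, Bool.and_eq_true] at h; exact h.1

theorem norm_vec {n : ℕ} (h : inL n = true) : sqNorm (vec n : V) = nrm n := by
  rw [coe_vec h, nrm_eq]

theorem okV_norm {n : ℕ} (h : okV n = true) : sqNorm (vec n : V) ≤ 64 := by
  rw [norm_vec (okV_inL h)]
  simp only [okV, band_eq, Bool.and_eq_true, ble_true_iff] at h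
  exact_mod_cast h.2

theorem Rep.vec_eq {a : ℕ} {g : Co0} (h : Rep a g) {m n : ℕ} (hm : okV m = true) (hn : okV n = true)
    (e : CfsgH6.act a m = n) : g • vec m = vec n :=
  h.smul_eq (okV_norm hm) (bd_of_sqNorm (okV_norm hn))
    (by rw [enc_vec (okV_inL hm), enc_vec (okV_inL hn), e])

/-- the codes in `gs` fix the coded vectors in `bs` -/
def fixes (bs gs : List ℕ) : Bool :=
  band (allL bs okV) (allL gs fun a => allL bs fun b => Nat.beq (act a b) b)

theorem in_Fix {bs gs : List ℕ} (hv : ∀ a ∈ gs, In ⊤ a) (h : fixes bs gs = true) :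
    ∀ a ∈ gs, In (Fix bs) a := by
  simp only [fixes, band_eq, Bool.and_eq_true, allL_iff, beq_true_iff] at h
  intro a ha
  obtain ⟨g, -, hg⟩ := hv a ha
  exact ⟨g, fun b hb => hg.vec_eq (h.1 b hb) (h.1 b hb) (h.2 a ha b hb), hg⟩

theorem valid_top {gs : List ℕ} (h : allL gs okCo = true) : ∀ a ∈ gs, In ⊤ a :=
  fun a ha => in_top ((allL_iff _ _).1 h a ha)

/-- an element mapping one list of coded vectors to another -/
theorem exists_map {H : Subgroup Co0} {a : ℕ} (ha : In H a) (l : List (ℕ × ℕ))
    (h : allL l (fun p => band (okV p.1) (band (okV p.2) (Nat.beq (act a p.1) p.2))) = true) :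
    ∃ g ∈ H, ∀ p ∈ l, g • vec p.1 = vec p.2 := by
  simp only [band_eq, Bool.and_eq_true, allL_iff, beq_true_iff] at h
  obtain ⟨g, hg, hr⟩ := ha
  exact ⟨g, hg, fun p hp => hr.vec_eq (h p hp).1 (h p hp).2.1 (h p hp).2.2⟩

/-! ### Inner products -/

theorem dg_mvraw {a : ℕ} (ha : okMat a = true) {x : V} (hx : Bd 8 x) {j : ℕ} (hj : j < 24) :
    (dg (mvraw a (enc x)) j : ℤ) = dotInt (dec (rowEnc a j)) x + 2048 := by
  have := dg_encB (by norm_num) ((mulVec_bd ha hx).mono (by norm_num : (1536 : ℤ) ≤ 2048)) (pt j)
  rw [pn_pt hj] at this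
  rw [mvraw_enc ha hx, this]
  nth_rewrite 2 [← pn_pt hj]
  rw [rowEnc_eq, dec_enc (matOf_bd ha _)]
  rfl

/-! ### Descent -/

/-- search for a word in the generators that maps `n` below `n0` -/
def anyW (gs : List ℕ) (n0 d : ℕ) : ℕ → Bool :=
  Nat.rec (motive := fun _ => ℕ → Bool) (fun _ => false)
    (fun _ ih n => anyL gs fun a => forceH (act a n) fun m => bor (Nat.blt m n0) (ih m)) d

theorem anyW_sound {H : Subgroup Co0} {gs : List ℕ} (hv : ∀ a ∈ gs, In H a) (n0 d : ℕ) (v : LL)
    (hn : sqNorm (v : V) ≤ 64) (h : anyW gs n0 d (enc (v : V)) = true) :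
    ∃ g ∈ H, enc ((g • v : LL) : V) < n0 := by
  induction d generalizing v with
  | zero => exact absurd h (by simp [anyW])
  | succ d ih =>
    have h : anyL gs (fun a => forceH (act a (enc (v : V))) fun m =>
      bor (Nat.blt m n0) (anyW gs n0 d m)) = true := h
    simp only [anyL_iff, forceH_eq, bor_eq, Bool.or_eq_true, blt_true_iff] at h
    obtain ⟨a, ha, h⟩ := h
    obtain ⟨g, hg, hr⟩ := hv a ha
    rw [hr.act v hn] at h
    rcases h with h | h
    · exact ⟨g, hg, h⟩
    · obtain ⟨g', hg', h⟩ := ih (g • v) (by rwa [co_norm]) h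
      exact ⟨g' * g, H.mul_mem hg' hg, by rwa [mul_smul]⟩

theorem descent {H : Subgroup Co0} {X : Set LL} (hX : ∀ g ∈ H, ∀ v ∈ X, g • v ∈ X) {R : LL → Prop}
    (h : ∀ v ∈ X, R v ∨ ∃ g ∈ H, enc ((g • v : LL) : V) < enc (v : V)) :
    ∀ v ∈ X, ∃ g ∈ H, R (g • v) := by
  intro v hv
  induction hn : enc (v : V) using Nat.strong_induction_on generalizing v with
  | _ n ih =>
    rcases h v hv with h | ⟨g, hg, h⟩
    · exact ⟨1, H.one_mem, by rwa [one_smul]⟩
    · obtain ⟨g', hg', h'⟩ := ih _ (hn ▸ h) _ (hX g hg v hv) rfl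
      exact ⟨g' * g, H.mul_mem hg' hg, by rwa [mul_smul]⟩

/-- membership in a list of numbers -/
def memL (l : List ℕ) (n : ℕ) : Bool := anyL l (Nat.beq n)

theorem memL_iff {l : List ℕ} {n : ℕ} : memL l n = true ↔ n ∈ l := by
  simp [memL, anyL_iff]

/-- `n` goes down under a word in `gs`, or one of `es`, or lies in `rs` -/
def down (gs es rs : List ℕ) (d n : ℕ) : Bool :=
  bor (anyW gs n 1 n) (bor (memL rs n) (bor (anyW es n 1 n) (anyW gs n d n)))

theorem down_sound {H : Subgroup Co0} {gs es rs : List ℕ} (hv' : ∀ a ∈ gs, In H a)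
    (he : ∀ a ∈ es, In H a) {d : ℕ} {X : Set LL} (hX : ∀ g ∈ H, ∀ v ∈ X, g • v ∈ X)
    (hn : ∀ v ∈ X, sqNorm (v : V) ≤ 64) (h : ∀ v ∈ X, down gs es rs d (enc (v : V)) = true) :
    ∀ v ∈ X, ∃ g ∈ H, enc ((g • v : LL) : V) ∈ rs := by
  refine descent hX (R := fun v => enc (v : V) ∈ rs) fun v hv => ?_
  have := h v hv
  simp only [down, bor_eq, Bool.or_eq_true, memL_iff] at this
  rcases this with h | h | h | h
  · exact Or.inr (anyW_sound hv' _ _ v (hn v hv) h)
  · exact Or.inl h
  · exact Or.inr (anyW_sound he _ _ v (hn v hv) h)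
  · exact Or.inr (anyW_sound hv' _ _ v (hn v hv) h)

end

end CfsgH6
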