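/-
Short vectors modulo twice an even lattice of rank 24 without roots.
-/
import Mathlib

set_option autoImplicit false
set_option linter.unusedSimpArgs false
set_option linter.unusedVariables false

namespace CfsgH6

open Finset Matrix

noncomputable section

/-- an even positive Gram matrix without roots -/
structure NR (B : Matrix (Fin 24) (Fin 24) ℤ) : Prop where
  symm : B.IsSymm
  pos : ∀ x : Fin 24 → ℤ, x ≠ 0 → 0 < x ⬝ᵥ (B *ᵥ x)
  even : ∀ x : Fin 24 → ℤ, (2 : ℤ) ∣ x ⬝ᵥ (B *ᵥ x)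
  ne2 : ∀ x : Fin 24 → ℤ, x ⬝ᵥ (B *ᵥ x) ≠ 2

variable {B : Matrix (Fin 24) (Fin 24) ℤ}

theorem NR.comm (h : NR B) (x y : Fin 24 → ℤ) : x ⬝ᵥ (B *ᵥ y) = y ⬝ᵥ (B *ᵥ x) := by
  rw [dotProduct_mulVec, ← mulVec_transpose, h.symm.eq, dotProduct_comm]

theorem NR.four_le (h : NR B) {x : Fin 24 → ℤ} (hx : x ≠ 0) : 4 ≤ x ⬝ᵥ (B *ᵥ x) := by
  have := h.pos x hx; have := h.even x; have := h.ne2 x; omega

theorem NR.sixteen_le (h : NR B) {x : Fin 24 → ℤ} (hx : x ≠ 0) (h2 : ∀ i, (2 : ℤ) ∣ x i) :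
    16 ≤ x ⬝ᵥ (B *ᵥ x) := by
  choose z hz using h2
  obtain rfl : x = (2 : ℤ) • z := funext hz
  have := h.four_le (x := z) (by rintro rfl; simp at hx)
  rw [mulVec_smul, dotProduct_smul, smul_dotProduct, smul_eq_mul, smul_eq_mul]
  omega

theorem NR.cong (h : NR B) {x y : Fin 24 → ℤ} (hx : x ⬝ᵥ (B *ᵥ x) ≤ 8) (hy : y ⬝ᵥ (B *ᵥ y) ≤ 8)
    (hc : ∀ i, (2 : ℤ) ∣ (x - y) i) : y = x ∨ y = -x ∨
      (x ⬝ᵥ (B *ᵥ y) = 0 ∧ x ⬝ᵥ (B *ᵥ x) = 8 ∧ y ⬝ᵥ (B *ᵥ y) = 8) := by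
  by_cases h1 : x - y = 0
  · exact Or.inl (sub_eq_zero.1 h1).symm
  by_cases h2 : x + y = 0
  · exact Or.inr (Or.inl (eq_neg_of_add_eq_zero_right h2))
  have h3 := h.sixteen_le h1 hc
  have h4 := h.sixteen_le h2 fun i => by
    have := hc i; simp only [Pi.sub_apply, Pi.add_apply] at *; omega
  rw [mulVec_sub, sub_dotProduct, dotProduct_sub, dotProduct_sub, h.comm y x] at h3
  rw [mulVec_add, add_dotProduct, dotProduct_add, dotProduct_add, h.comm y x] at h4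
  omega

theorem NR.card_orth (h : NR B) {F : Finset (Fin 24 → ℤ)} (h8 : ∀ x ∈ F, x ⬝ᵥ (B *ᵥ x) = 8)
    (ho : ∀ x ∈ F, ∀ y ∈ F, x ≠ y → x ⬝ᵥ (B *ᵥ y) = 0) : F.card ≤ 24 := by
  have : LinearIndependent ℤ fun x : F => (x : Fin 24 → ℤ) := by
    rw [Fintype.linearIndependent_iff]
    intro g hg x
    have := congrArg (fun v => (x : Fin 24 → ℤ) ⬝ᵥ (B *ᵥ v)) hg
    simp only [mulVec_sum, dotProduct_sum, mulVec_smul, dotProduct_smul, mulVec_zero,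
      dotProduct_zero, smul_eq_mul] at this
    rw [sum_eq_single x (fun y _ hy => by
      rw [ho x x.2 y y.2 (fun e => hy (Subtype.ext e.symm)), mul_zero]) (by simp), h8 x x.2] at this
    omega
  simpa using this.fintype_card_le_finrank

theorem NR.card_cross (h : NR B) {F : Finset (Fin 24 → ℤ)} (h8 : ∀ x ∈ F, x ⬝ᵥ (B *ᵥ x) = 8)
    (hc : ∀ x ∈ F, ∀ y ∈ F, ∀ i, (2 : ℤ) ∣ (x - y) i) : F.card ≤ 48 := by
  have key : ∀ P : (Fin 24 → ℤ) → Prop, (∀ x ∈ F, P x → ¬ P (-x)) → ∀ [DecidablePred P],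
      (F.filter P).card ≤ 24 := fun P hP _ =>
    h.card_orth (fun x hx => h8 x (mem_filter.1 hx).1) fun x hx y hy hne => by
      rw [mem_filter] at hx hy
      rcases h.cong (h8 x hx.1).le (h8 y hy.1).le (hc x hx.1 y hy.1) with e | e | e
      · exact absurd e.symm hne
      · exact absurd (e ▸ hy.2) (hP x hx.1 hx.2)
      · exact e.1
  classical
  have h1 := key (fun x => toLex x < toLex (-x)) fun x _ h1 h2 => by
    rw [neg_neg] at h2; exact lt_asymm h1 h2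
  have h2 := key (fun x => ¬ toLex x < toLex (-x)) fun x hx h1 h2 => by
    rw [neg_neg] at h2
    have e : x = -x := toLex.injective (le_antisymm (not_lt.1 h2) (not_lt.1 h1))
    have h0 : x = 0 := funext fun i => by have := congrFun e i; simp only [Pi.neg_apply] at this; simp; omega
    have := h8 x hx
    rw [h0] at this; simp at this
  have := card_filter_add_card_filter_not (s := F) fun x => toLex x < toLex (-x)
  omega

/-- the weight of a short vector -/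
def wgt (B : Matrix (Fin 24) (Fin 24) ℤ) (x : Fin 24 → ℤ) : ℕ :=
  if x = 0 then 48 else if x ⬝ᵥ (B *ᵥ x) = 8 then 1 else 24

theorem NR.sum_le (h : NR B) {F : Finset (Fin 24 → ℤ)} (h8 : ∀ x ∈ F, x ⬝ᵥ (B *ᵥ x) ≤ 8)
    (hc : ∀ x ∈ F, ∀ y ∈ F, ∀ i, (2 : ℤ) ∣ (x - y) i) : ∑ x ∈ F, wgt B x ≤ 48 := by
  by_cases h1 : ∀ x ∈ F, x ⬝ᵥ (B *ᵥ x) = 8
  · rw [sum_congr rfl (g := fun _ => 1) fun x hx => by
      rw [wgt, if_neg, if_pos (h1 x hx)]
      rintro rfl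
      simpa using h1 _ hx]
    simpa using h.card_cross h1 hc
  · push Not at h1
    obtain ⟨x, hx, h1⟩ := h1
    have h2 : F ⊆ {x, -x} := fun y hy => by
      rcases h.cong (h8 x hx) (h8 y hy) (hc x hx y hy) with e | e | e
      · simp [e]
      · simp [e]
      · exact absurd e.2.1 h1
    refine (sum_le_sum_of_subset h2).trans ?_
    by_cases h0 : x = 0
    · simp [h0, wgt]
    · refine (sum_le_card_nsmul _ _ 24 fun y hy => ?_).trans ?_
      · rw [wgt, if_neg]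
        · split_ifs <;> omega
        · rintro rfl
          simp [eq_comm, h0] at hy
      · have := card_le_two (a := x) (b := -x)
        rw [smul_eq_mul]; omega

theorem dvd_sub_iff (x y : Fin 24 → ℤ) :
    (∀ i, (2 : ℤ) ∣ (x - y) i) ↔ (fun i => (y i : ZMod 2)) = fun i => (x i : ZMod 2) := by
  rw [funext_iff]
  exact forall_congr' fun i => (ZMod.intCast_eq_intCast_iff_dvd_sub _ _ 2).symm

theorem NR.fibers (h : NR B) (h4 : {x : Fin 24 → ℤ | x ⬝ᵥ (B *ᵥ x) = 4}.ncard = 196560)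
    (h6 : {x : Fin 24 → ℤ | x ⬝ᵥ (B *ᵥ x) = 6}.ncard = 16773120)
    (h8 : {x : Fin 24 → ℤ | x ⬝ᵥ (B *ᵥ x) = 8}.ncard = 398034000) (x : Fin 24 → ℤ) :
    ∃ F : Finset (Fin 24 → ℤ), (∀ y, y ∈ F ↔ y ⬝ᵥ (B *ᵥ y) ≤ 8 ∧ ∀ i, (2 : ℤ) ∣ (x - y) i) ∧
      ∑ y ∈ F, wgt B y = 48 := by
  have f4 := Set.finite_of_ncard_ne_zero (h4.trans_ne (by norm_num))
  have f6 := Set.finite_of_ncard_ne_zero (h6.trans_ne (by norm_num))
  have f8 := Set.finite_of_ncard_ne_zero (h8.trans_ne (by norm_num))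
  rw [Set.ncard_eq_toFinset_card _ f4] at h4
  rw [Set.ncard_eq_toFinset_card _ f6] at h6
  rw [Set.ncard_eq_toFinset_card _ f8] at h8
  let S : Finset (Fin 24 → ℤ) := {0} ∪ f4.toFinset ∪ f6.toFinset ∪ f8.toFinset
  have hS : ∀ y, y ∈ S ↔ y ⬝ᵥ (B *ᵥ y) ≤ 8 := fun y => by
    simp only [S, mem_union, mem_singleton, Set.Finite.mem_toFinset, Set.mem_ofPred_eq]
    by_cases h0 : y = 0
    · simp [h0]
    · have := h.four_le h0; have := h.even y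
      simp only [h0, false_or]; omega
  have hw : ∀ {k : ℤ} {T : Finset (Fin 24 → ℤ)}, k ≠ 0 → (∀ y ∈ T, y ⬝ᵥ (B *ᵥ y) = k) →
      ∑ y ∈ T, wgt B y = T.card * if k = 8 then 1 else 24 := fun hk hT => by
    rw [← smul_eq_mul, ← sum_const]
    refine sum_congr rfl fun y hy => ?_
    rw [wgt, if_neg, hT y hy]
    rintro rfl
    exact hk (by simpa using (hT _ hy).symm)
  have hsum : ∑ y ∈ S, wgt B y = 48 * 2 ^ 24 := by
    rw [sum_union, sum_union, sum_union, hw (k := 4) (T := f4.toFinset) (by norm_num) (by simp),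
      hw (k := 6) (T := f6.toFinset) (by norm_num) (by simp),
      hw (k := 8) (T := f8.toFinset) (by norm_num) (by simp), h4, h6, h8]
    · simp [wgt]
    all_goals
      simp only [disjoint_left, mem_union, mem_singleton, Set.Finite.mem_toFinset, Set.mem_ofPred_eq]
    · rintro _ rfl; simp
    · rintro _ (rfl | h)
      · simp
      · omega
    · rintro _ ((rfl | h) | h)
      · simp
      · omega
      · omega
  let π : (Fin 24 → ℤ) → Fin 24 → ZMod 2 := fun y i => y i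
  rw [← sum_fiberwise (g := π)] at hsum
  have hle : ∀ c ∈ (univ : Finset (Fin 24 → ZMod 2)), ∑ y ∈ S with π y = c, wgt B y ≤ 48 :=
    fun c _ => h.sum_le (fun y hy => (hS y).1 (mem_filter.1 hy).1) fun y hy z hz =>
      (dvd_sub_iff y z).2 ((mem_filter.1 hz).2.trans (mem_filter.1 hy).2.symm)
  have := (sum_eq_sum_iff_of_le hle).1 (by rw [hsum]; simp [mul_comm]) (π x) (mem_univ _)
  exact ⟨_, fun y => by rw [mem_filter, hS, dvd_sub_iff], this⟩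

theorem NR.ncard_cross (h : NR B) (h4 : {x : Fin 24 → ℤ | x ⬝ᵥ (B *ᵥ x) = 4}.ncard = 196560)
    (h6 : {x : Fin 24 → ℤ | x ⬝ᵥ (B *ᵥ x) = 6}.ncard = 16773120)
    (h8 : {x : Fin 24 → ℤ | x ⬝ᵥ (B *ᵥ x) = 8}.ncard = 398034000) {x : Fin 24 → ℤ}
    (hx : x ⬝ᵥ (B *ᵥ x) = 8) :
    {y : Fin 24 → ℤ | y ⬝ᵥ (B *ᵥ y) = 8 ∧ ∀ i, (2 : ℤ) ∣ (x - y) i}.ncard = 48 := by
  obtain ⟨F, hF, hs⟩ := h.fibers h4 h6 h8 x
  have h1 : ∀ y ∈ F, y ⬝ᵥ (B *ᵥ y) = 8 := fun y hy => by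
    rcases h.cong hx.le ((hF y).1 hy).1 ((hF y).1 hy).2 with e | e | e
    · rwa [e]
    · rwa [e, mulVec_neg, dotProduct_neg, neg_dotProduct, neg_neg]
    · exact e.2.2
  rw [sum_congr rfl (g := fun _ => 1) fun y hy => by
      rw [wgt, if_neg, if_pos (h1 y hy)]
      rintro rfl
      simpa using h1 _ hy] at hs
  rw [← hs, ← card_eq_sum_ones, ← Set.ncard_coe_finset]
  congr 1; ext y
  exact ⟨fun hy => (hF y).2 ⟨hy.1.le, hy.2⟩, fun hy => ⟨h1 y hy, ((hF y).1 hy).2⟩⟩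

theorem NR.exists_short (h : NR B) (h4 : {x : Fin 24 → ℤ | x ⬝ᵥ (B *ᵥ x) = 4}.ncard = 196560)
    (h6 : {x : Fin 24 → ℤ | x ⬝ᵥ (B *ᵥ x) = 6}.ncard = 16773120)
    (h8 : {x : Fin 24 → ℤ | x ⬝ᵥ (B *ᵥ x) = 8}.ncard = 398034000) (x : Fin 24 → ℤ) :
    ∃ y, y ⬝ᵥ (B *ᵥ y) ≤ 8 ∧ ∀ i, (2 : ℤ) ∣ (x - y) i := by
  obtain ⟨F, hF, hs⟩ := h.fibers h4 h6 h8 x
  obtain ⟨y, hy⟩ := nonempty_of_sum_ne_zero (hs.trans_ne (by norm_num))
  exact ⟨y, (hF y).1 hy⟩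

end

end CfsgH6
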