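/-
The triple cover of the third Janko group: transport of the certificate.
-/
import Cfsg.Prelude.Def_Spor_J3
import Cfsg.Prelude.Def_Classical
import Cfsg.Agent.H6.J3

set_option autoImplicit false
set_option maxRecDepth 100000

namespace CfsgH6

open CfsgH5 Subgroup MulAction Matrix Pointwise Cfsg Cfsg.Spor

noncomputable section

theorem le_ker_of_dichotomy {Γ A : Type*} [Group Γ] [Finite Γ] [Group A] [Finite A] {G Z : Subgroup Γ}
    (h : ∀ N : Subgroup Γ, N ≤ G → NormBy G N → N ≤ Z ∨ N = G) (f : Γ →* A)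
    (hc : Nat.card Z * Nat.card A < Nat.card G) : G ≤ f.ker := by
  rcases h (f.ker ⊓ G) inf_le_right (fun g hg n hn =>
    ⟨f.normal_ker.conj_mem n hn.1 g, G.mul_mem (G.mul_mem hg hn.2) (G.inv_mem hg)⟩) with h | h
  · have h1 := card_mul_index ((f.ker ⊓ G).subgroupOf G)
    rw [Nat.card_congr (subgroupOfEquivOfLe inf_le_right).toEquiv, inf_subgroupOf_right, ← relIndex,
      relIndex_ker] at h1
    have := Nat.mul_le_mul (card_le_of_le h) (Subgroup.card_le_card_group (G.map f))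
    omega
  · exact h ▸ inf_le_left

theorem ncard_image_congr {α β γ : Type*} {S : Set α} {f : α → β} {g : α → γ}
    (h : ∀ a ∈ S, ∀ b ∈ S, f a = f b ↔ g a = g b) : (f '' S).ncard = (g '' S).ncard := by
  refine Set.ncard_congr (fun a ha => g ha.choose) (fun a ha => ⟨_, ha.choose_spec.1, rfl⟩)
    (fun a b ha hb e => ?_) ?_
  · rw [← ha.choose_spec.2, ← hb.choose_spec.2]
    exact (h _ ha.choose_spec.1 _ hb.choose_spec.1).2 e
  · rintro _ ⟨a, ha, rfl⟩
    have h1 : f a ∈ f '' S := ⟨a, ha, rfl⟩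
    exact ⟨_, h1, (h _ h1.choose_spec.1 _ ha).1 h1.choose_spec.2⟩

/-- the Frobenius map -/
def sig4 : F4 →+* F4 where
  toFun x := x ^ 2
  map_one' := by decide
  map_mul' := by decide
  map_zero' := by decide
  map_add' := by decide

theorem herm_of {ι : Type} [Fintype ι] [DecidableEq ι] {M : Matrix ι ι F4}
    (h : Mᵀ * M.map sig4 = 1) (u v : ι → F4) :
    ∑ i, (M *ᵥ u) i * (M *ᵥ v) i ^ 2 = ∑ i, u i * v i ^ 2 := by
  show (M *ᵥ u) ⬝ᵥ (sig4 ∘ (M *ᵥ v)) = u ⬝ᵥ (sig4 ∘ v)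
  have : sig4 ∘ (M *ᵥ v) = M.map sig4 *ᵥ (sig4 ∘ v) := funext fun i => RingHom.map_mulVec sig4 M v i
  rw [this, dotProduct_mulVec, ← vecMul_transpose, vecMul_vecMul, h, vecMul_one]

/-- the nonzero multiples of a vector -/
def ln4 {ι : Type} [Fintype ι] [DecidableEq ι] (x : ι → F4) : Set (ι → F4) :=
  {y | ∃ i : ℕ, y = om4 ι ^ i • x}

theorem ln4_eq {ι : Type} [Fintype ι] [DecidableEq ι] {x y : ι → F4} :
    ln4 x = ln4 y ↔ ∃ c : F4, c ≠ 0 ∧ x = c • y := by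
  constructor
  · intro h
    obtain ⟨i, hi⟩ : x ∈ ln4 y := h ▸ ⟨0, by simp⟩
    exact ⟨_, pow_ne_zero i (by decide), hi.trans (om4_smul _ _)⟩
  · rintro ⟨c, hc, rfl⟩
    obtain ⟨k, hk, rfl⟩ := (by decide : ∀ c : F4, c ≠ 0 → ∃ k < 3, c = F4.w ^ k) c hc
    ext z
    simp only [ln4, Set.mem_ofPred_eq, om4_smul, smul_smul, ← pow_add]
    constructor
    · rintro ⟨i, rfl⟩; exact ⟨_, rfl⟩
    · rintro ⟨i, rfl⟩
      refine ⟨i + 2 * k, ?_⟩
      rw [show i + 2 * k + k = i + 3 * k by ring, pow_add, pow_mul,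
        show F4.w ^ 3 = 1 by decide, one_pow, mul_one]

theorem smul_ln4 {ι : Type} [Fintype ι] [DecidableEq ι] (g : (Matrix ι ι F4)ˣ) (x : ι → F4) :
    g • ln4 x = ln4 (g • x) := by
  have : ∀ i : ℕ, g • om4 ι ^ i • x = om4 ι ^ i • g • x := fun i => by
    rw [← mul_smul, ← mul_smul, (Commute.pow_right (om4_comm g) i).eq]
  ext y
  constructor
  · rintro ⟨_, ⟨i, rfl⟩, rfl⟩; exact ⟨i, this i⟩
  · rintro ⟨i, rfl⟩; exact ⟨_, ⟨i, rfl⟩, this i⟩

theorem card_iso (ι : Type) [Fintype ι] [DecidableEq ι] :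
    (2 * {y : ι → F4 | ∑ i, y i ^ 3 = 0}.ncard : ℤ) = 4 ^ Fintype.card ι + (-2) ^ Fintype.card ι := by
  classical
  let s : F4 → ℤ := fun x => if x = 0 then 1 else -1
  have h1 : ∀ (y : ι → F4) (T : Finset ι), (∑ i ∈ T, y i ^ 3 = 0 ∧ ∏ i ∈ T, s (y i) = 1) ∨
      (∑ i ∈ T, y i ^ 3 = 1 ∧ ∏ i ∈ T, s (y i) = -1) := by
    intro y T
    induction T using Finset.induction_on with
    | empty => simp
    | insert a T ha ih =>
      rw [Finset.sum_insert ha, Finset.prod_insert ha]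
      have : (y a ^ 3 = 0 ∧ s (y a) = 1) ∨ (y a ^ 3 = 1 ∧ s (y a) = -1) := by
        generalize y a = x; revert x; decide
      rcases ih with ⟨h, h'⟩ | ⟨h, h'⟩ <;> rcases this with ⟨k, k'⟩ | ⟨k, k'⟩ <;> rw [h, h', k, k'] <;>
        decide
  have h2 := Finset.prod_univ_sum (fun _ : ι => (Finset.univ : Finset F4)) fun _ x => s x
  rw [show ∑ x : F4, s x = -2 by decide, Finset.prod_const, Fintype.piFinset_univ] at h2
  have h3 : ∑ y : ι → F4, (1 + ∏ i, s (y i)) = ∑ y : ι → F4, if ∑ i, y i ^ 3 = 0 then 2 else 0 := by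
    refine Finset.sum_congr rfl fun y _ => ?_
    rcases h1 y Finset.univ with ⟨h, h'⟩ | ⟨h, h'⟩ <;> rw [h, h'] <;> decide
  rw [Finset.sum_add_distrib, ← h2, Finset.sum_ite, Finset.sum_const_zero, add_zero, Finset.sum_const,
    Finset.sum_const, Finset.card_univ, Fintype.card_fun, F4.card_eq] at h3
  rw [← Set.ncard_coe_finset (Finset.filter _ _), Finset.coe_filter] at h3
  simp only [Finset.mem_univ, true_and, nsmul_eq_mul, mul_one, Finset.card_univ] at h3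
  push_cast at h3
  linarith

namespace J3

/-- the group of the certificate -/
abbrev G := C.gen R 8937930026385408
/-- its centre -/
abbrev Z := C.gen R 196159429230833773869868419475239575503198607639501078528

/-- numbering -/
def ix (z : F9) : ℕ := 3 * z.1.val + z.2.val

theorem cA : ∀ z : F9, (mc4 e18).code (j3A F4 F4.w z) = R (1 + ix z) ∧
    (j3A F4 F4.w z)ᵀ * (j3A F4 F4.w z).map sig4 = 1 := by decide +kernel
theorem cE : ∀ z : F9, (mc4 e18).code (j3E F4 F4.w z) = R (10 + ix z) ∧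
    (j3E F4 F4.w z)ᵀ * (j3E F4 F4.w z).map sig4 = 1 := by decide +kernel
theorem cD : ∀ z : F9, (mc4 e18).code (j3D F4 F4.w z) = R (19 + ix z) ∧
    (j3D F4 F4.w z)ᵀ * (j3D F4 F4.w z).map sig4 = 1 := by decide +kernel
theorem cB : ∀ z : F9, z ≠ 0 → (mc4 e18).code (j3B F4 z) = R (28 + ix z) ∧
    (j3B F4 z)ᵀ * (j3B F4 z).map sig4 = 1 := by decide +kernel
theorem cC : ∀ z : F9, z ≠ 0 → (mc4 e18).code (j3C F4 z) = R (37 + ix z) ∧
    (j3C F4 z)ᵀ * (j3C F4 z).map sig4 = 1 := by decide +kernel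

theorem bits : ∀ i < 46, (70231036788734 : ℕ).testBit i = true ↔ ∃ z : F9, i = 1 + ix z ∨ i = 10 + ix z ∨
    i = 19 + ix z ∨ (z ≠ 0 ∧ i = 28 + ix z) ∨ (z ≠ 0 ∧ i = 37 + ix z) := by decide +kernel

theorem ix_lt : ∀ z : F9, ix z < 9 := by decide

variable {F : Type} [Field F] (e : F ≃+* F4) {ω : F}

/-- change of the field -/
abbrev fm : GL F9 F →* GL F9 F4 := Units.map (e.toRingHom.mapMatrix (m := F9)).toMonoidHom

theorem fm_inj : Function.Injective (fm e) := Units.map_injective e.mapMatrix.injective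

theorem three_map (h : e ω = F4.w) : (threeJ3 F ω).map (fm e) = G := by
  have hA : ∀ z, (j3A F ω z).map e = j3A F4 F4.w z := fun z => by
    ext i j; simp [j3A, diagonal_apply, omegaPow, apply_ite e, h]
  have hE : ∀ z, (j3E F ω z).map e = j3E F4 F4.w z := fun z => by
    ext i j; simp [j3E, diagonal_apply, omegaPow, apply_ite e, h]
  have hD : ∀ z, (j3D F ω z).map e = j3D F4 F4.w z := fun z => by
    ext i j; simp [j3D, j3Lam, apply_ite e, h]
  have hB : ∀ z, (j3B F z).map e = j3B F4 z := fun z => by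
    ext i j; simp [j3B, apply_ite e]
  have hC : ∀ z, (j3C F z).map e = j3C F4 z := fun z => by
    ext i j; simp [j3C, apply_ite e]
  refine (closure_map_eq (mc4 e18) e.mapMatrix.injective valid0 ?_ ?_).trans gen_eq
  · rintro x ((((⟨z, rfl⟩ | ⟨z, rfl⟩) | ⟨z, rfl⟩) | ⟨z, hz, rfl⟩) | ⟨z, hz, rfl⟩) <;>
      have := ix_lt z
    · exact ⟨_, (bits _ (by omega)).2 ⟨z, by simp⟩, (congrArg _ (hA z)).trans (cA z).1⟩
    · exact ⟨_, (bits _ (by omega)).2 ⟨z, by simp⟩, (congrArg _ (hE z)).trans (cE z).1⟩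
    · exact ⟨_, (bits _ (by omega)).2 ⟨z, by simp⟩, (congrArg _ (hD z)).trans (cD z).1⟩
    · exact ⟨_, (bits _ (by omega)).2 ⟨z, by simp [hz]⟩, (congrArg _ (hB z)).trans (cB z hz).1⟩
    · exact ⟨_, (bits _ (by omega)).2 ⟨z, by simp [hz]⟩, (congrArg _ (hC z)).trans (cC z hz).1⟩
  · intro i hi
    have hi' : i < 46 := by
      by_contra h'
      rw [Nat.testBit_eq_false_of_lt (lt_of_lt_of_le (by norm_num)
        (Nat.pow_le_pow_right (by norm_num) (not_lt.1 h')))] at hi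
      exact absurd hi (by simp)
    obtain ⟨z, rfl | rfl | rfl | ⟨hz, rfl⟩ | ⟨hz, rfl⟩⟩ := (bits i hi').1 hi
    · exact ⟨_, by simp [j3Gens], (congrArg _ (hA z)).trans (cA z).1⟩
    · exact ⟨_, by simp [j3Gens], (congrArg _ (hE z)).trans (cE z).1⟩
    · exact ⟨_, by simp [j3Gens], (congrArg _ (hD z)).trans (cD z).1⟩
    · exact ⟨_, Or.inl (Or.inr ⟨z, hz, rfl⟩), (congrArg _ (hB z)).trans (cB z hz).1⟩
    · exact ⟨_, Or.inr ⟨z, hz, rfl⟩, (congrArg _ (hC z)).trans (cC z hz).1⟩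

theorem three_eq : threeJ3 F4 F4.w = G := by
  rw [← three_map (RingEquiv.refl F4) rfl]
  exact (Subgroup.map_id _).symm

/-- the isomorphism with the group of the certificate -/
def threeEquiv (h : e ω = F4.w) : threeJ3 F ω ≃* G :=
  (equivMapOfInjective _ _ (fm_inj e)).trans (MulEquiv.subgroupCongr (three_map e h))

theorem cards : Nat.card (center G) = 3 ∧ Nat.card (G ⧸ center G) = 50232960 :=
  card_center_quot Z_le cen.1 cardZ card

theorem herm {g : GL F9 F4} (hg : g ∈ G) (u v : F9 → F4) :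
    ∑ i, (g.1 *ᵥ u) i * (g.1 *ᵥ v) i ^ 2 = ∑ i, u i * v i ^ 2 := by
  have : G ≤ preserving (Units.coeHom _) fun u v => ∑ i, u i * v i ^ 2 := by
    rw [← three_eq, threeJ3, closure_le]
    rintro x ((((⟨z, h⟩ | ⟨z, h⟩) | ⟨z, h⟩) | ⟨z, hz, h⟩) | ⟨z, hz, h⟩)
    · exact herm_of (M := x.1) (h ▸ (cA z).2)
    · exact herm_of (M := x.1) (h ▸ (cE z).2)
    · exact herm_of (M := x.1) (h ▸ (cD z).2)
    · exact herm_of (M := x.1) (h ▸ (cB z hz).2)
    · exact herm_of (M := x.1) (h ▸ (cC z hz).2)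
  exact this hg u v

theorem det_one {g : GL F9 F4} (hg : g ∈ G) : g.1.det = 1 := by
  have := le_ker_of_dichotomy dich (Matrix.GeneralLinearGroup.det (n := F9) (R := F4)) (by
    rw [cardZ, card, Nat.card_units, Nat.card_eq_fintype_card, F4.card_eq]; norm_num) hg
  rw [MonoidHom.mem_ker, Units.ext_iff, Matrix.GeneralLinearGroup.val_det_apply] at this
  exact this

theorem orbA : (orbit G (ln4 (Pi.single (0 : F9) (1 : F4)))).ncard = 23256 := by
  obtain ⟨h, x, hx, e⟩ := orb0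
  have : x = Pi.single (0 : F9) (1 : F4) := enc4_inj e18 (hx.symm.trans (by decide +kernel))
  subst this
  rw [e] at h
  exact h

theorem orbB : ∃ x : F9 → F4, ∀ y : F9 → F4, y ≠ 0 → ∑ i, y i ^ 3 = 0 → ∃ g ∈ G, ln4 y = g • ln4 x := by
  obtain ⟨p, h, x, hx, rfl⟩ := orb1
  have h0 : x = decV4 e18 20 := enc4_inj e18 (hx.symm.trans (by decide +kernel))
  have h1 : x ≠ 0 ∧ ∑ i, x i ^ 3 = 0 := by rw [h0]; decide +kernel
  refine ⟨x, ?_⟩
  let I : Set (F9 → F4) := {y | ∑ i, y i ^ 3 = 0} \ {0}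
  have hI : I.ncard = 130815 := by
    have := card_iso F9
    rw [show Fintype.card F9 = 9 from rfl] at this
    rw [Set.ncard_sdiff_singleton_of_mem (by simp)]
    omega
  have hw : ∀ (c : F4) y, c ≠ 0 → y ∈ I → c • y ∈ I := fun c y hc hy =>
    ⟨by
      have h3 : c ^ 3 = 1 := (by decide : ∀ c : F4, c ≠ 0 → c ^ 3 = 1) c hc
      simpa [mul_pow, h3] using hy.1, smul_ne_zero hc hy.2⟩
  have hr : ∀ X : orbit G (ln4 x), ∃ r ∈ I, X.1 = ln4 r := by
    rintro ⟨_, g, rfl⟩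
    refine ⟨g.1 • x, ⟨?_, (smul_ne_zero_iff_ne _).2 h1.1⟩, smul_ln4 _ _⟩
    have := herm g.2 x x
    simp only [← pow_succ'] at this
    exact this.trans h1.2
  choose r hr hr' using hr
  let f : orbit G (ln4 x) × F4ˣ → I := fun p => ⟨p.2.1 • r p.1, hw _ _ p.2.ne_zero (hr _)⟩
  have hf : Function.Injective f := by
    rintro ⟨X, a⟩ ⟨Y, b⟩ e
    have e : a.1 • r X = b.1 • r Y := congrArg Subtype.val e
    obtain rfl : X = Y := Subtype.ext (by
      rw [hr', hr', ← ln4_eq.2 ⟨a, a.ne_zero, rfl⟩, e, ln4_eq.2 ⟨b, b.ne_zero, rfl⟩])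
    rw [Units.ext (smul_left_injective F4 (hr X).2 e)]
  have hb := (Nat.bijective_iff_injective_and_card f).2 ⟨hf, le_antisymm (Nat.card_le_card_of_injective f hf) (by
    rw [Nat.card_prod, Nat.card_units, Nat.card_eq_fintype_card (α := F4), F4.card_eq,
      Nat.card_coe_set_eq, Nat.card_coe_set_eq, hI]
    exact le_trans (by norm_num) (Nat.mul_le_mul_right _ h))⟩
  intro y hy hy'
  obtain ⟨⟨X, a⟩, e⟩ := hb.2 ⟨y, hy', hy⟩
  have e : a.1 • r X = y := congrArg Subtype.val e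
  obtain ⟨g, hg⟩ := X.2
  exact ⟨g, g.2, by rw [← e, ln4_eq.2 ⟨a, a.ne_zero, rfl⟩, ← hr', ← hg]; rfl⟩

end J3

end

end CfsgH6
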