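/-
The rank-24 lattice: membership, generators, short vectors.
-/
import Cfsg.Agent.H6.Kron

set_option autoImplicit false
set_option linter.unusedSimpArgs false

namespace CfsgH6

open CfsgH5 Cfsg Finset

noncomputable section

/-- the lattice as a type -/
abbrev LL : Type := ↥leechLattice

/-- convenient form of the defining conditions -/
def IsL (x : V) : Prop :=
  ∃ (m : ℤ) (c : Finset GolayPt), c ∈ Sup ∧ (∀ i, x i % 4 = (m + if i ∈ c then 2 else 0) % 4) ∧
    (∑ i, x i) % 8 = (4 * m) % 8

theorem isL_of_leechSet {x : V} (h : x ∈ leechSet) : IsL x := by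
  obtain ⟨m, h1, h2, h3⟩ := h
  refine ⟨m, _, h3 (m + 2), fun i => ?_, h2⟩
  have h4 : x i % 2 = m % 2 := h1 i
  split_ifs with h
  · exact (mem_filter.1 h).2
  · have : ¬ x i % 4 = (m + 2) % 4 := fun e => h (mem_filter.2 ⟨mem_univ _, e⟩)
    omega

theorem leechSet_of_isL {x : V} (h : IsL x) : x ∈ leechSet := by
  obtain ⟨m, c, hc, h1, h2⟩ := h
  refine ⟨m, fun i => ?_, h2, fun k => ?_⟩
  · have := h1 i
    show x i % 2 = m % 2
    split_ifs at this <;> omega
  · have e : ∀ d : Finset GolayPt, (∀ i, x i % 4 = k % 4 ↔ i ∈ d) →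
        (univ.filter fun i => x i ≡ k [ZMOD 4]) = d := fun d hd => by
      ext i; rw [mem_filter, ← hd]; simp [Int.ModEq]
    by_cases hk : k % 4 = (m + 2) % 4
    · rw [e c fun i => ?_]
      · exact hc
      have := h1 i
      by_cases h : i ∈ c <;> simp only [h, if_true, if_false, iff_true, iff_false] at * <;> omega
    by_cases hk' : k % 4 = m % 4
    · rw [e cᶜ fun i => ?_]
      · exact compl_mem_Sup hc
      have := h1 i
      by_cases h : i ∈ c <;>
        simp only [h, if_true, if_false, iff_true, iff_false, mem_compl, not_true, not_false_iff] at * <;>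
        omega
    · rw [e ∅ fun i => ?_]
      · exact empty_mem_Sup
      have := h1 i
      by_cases h : i ∈ c <;> simp only [h, if_true, if_false, notMem_empty, iff_false] at * <;> omega

theorem IsL.add {x y : V} (hx : IsL x) (hy : IsL y) : IsL (x + y) := by
  obtain ⟨m, c, hc, h1, h2⟩ := hx
  obtain ⟨m', c', hc', h1', h2'⟩ := hy
  refine ⟨m + m', _, symmDiff_mem_Sup hc hc', fun i => ?_, ?_⟩
  · have k1 := h1 i; have k2 := h1' i
    have k3 : i ∈ symmDiff c c' ↔ (i ∈ c ∧ i ∉ c' ∨ i ∈ c' ∧ i ∉ c) := mem_symmDiff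
    rw [Pi.add_apply]
    by_cases h : i ∈ c <;> by_cases h' : i ∈ c' <;>
      simp only [h, h', if_true, if_false, not_true, not_false_iff, and_true, and_false, or_true,
        or_false, true_or, iff_true, iff_false] at k1 k2 k3 <;> simp only [k3, if_true, if_false] <;>
      omega
  · simp only [Pi.add_apply, sum_add_distrib]; omega

theorem IsL.neg {x : V} (hx : IsL x) : IsL (-x) := by
  obtain ⟨m, c, hc, h1, h2⟩ := hx
  refine ⟨-m, c, hc, fun i => ?_, ?_⟩
  · have := h1 i
    simp only [Pi.neg_apply]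
    split_ifs at * <;> omega
  · simp only [Pi.neg_apply, sum_neg_distrib]; omega

theorem isL_zero : IsL 0 := ⟨0, ∅, empty_mem_Sup, by simp, by simp⟩

theorem mem_leech_iff {x : V} : x ∈ leechLattice ↔ IsL x := by
  refine ⟨fun h => ?_, fun h => AddSubgroup.subset_closure (leechSet_of_isL h)⟩
  induction h using AddSubgroup.closure_induction with
  | mem x hx => exact isL_of_leechSet hx
  | zero => exact isL_zero
  | add x y _ _ hx hy => exact hx.add hy
  | neg x _ hx => exact hx.neg

/-- even or odd normal form -/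
theorem IsL.cases {x : V} (hx : IsL x) :
    (∃ c ∈ Sup, (∀ i, x i % 4 = if i ∈ c then 2 else 0) ∧ (∑ i, x i) % 8 = 0) ∨
    (∃ c ∈ Sup, (∀ i, x i % 4 = if i ∈ c then 3 else 1) ∧ (∑ i, x i) % 8 = 4) := by
  obtain ⟨m, c, hc, h1, h2⟩ := hx
  have : m % 4 = 0 ∨ m % 4 = 1 ∨ m % 4 = 2 ∨ m % 4 = 3 := by omega
  rcases this with h | h | h | h
  · left; refine ⟨c, hc, fun i => ?_, by omega⟩
    have := h1 i; split_ifs at * <;> omega
  · right; refine ⟨c, hc, fun i => ?_, by omega⟩
    have := h1 i; split_ifs at * <;> omega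
  · left; refine ⟨cᶜ, compl_mem_Sup hc, fun i => ?_, by omega⟩
    have := h1 i; by_cases hi : i ∈ c <;> simp [hi] at * <;> omega
  · right; refine ⟨cᶜ, compl_mem_Sup hc, fun i => ?_, by omega⟩
    have := h1 i; by_cases hi : i ∈ c <;> simp [hi] at * <;> omega

theorem mem_of_even {x : V} {c : Finset GolayPt} (hc : c ∈ Sup)
    (h1 : ∀ i, x i % 4 = if i ∈ c then 2 else 0) (h2 : (∑ i, x i) % 8 = 0) : x ∈ leechLattice :=
  mem_leech_iff.2 ⟨0, c, hc, fun i => by have := h1 i; split_ifs at * <;> omega, by omega⟩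

theorem mem_of_odd {x : V} {c : Finset GolayPt} (hc : c ∈ Sup)
    (h1 : ∀ i, x i % 4 = if i ∈ c then 3 else 1) (h2 : (∑ i, x i) % 8 = 4) : x ∈ leechLattice :=
  mem_leech_iff.2 ⟨1, c, hc, fun i => by have := h1 i; split_ifs at * <;> omega, by omega⟩

theorem card_mod_four {c : Finset GolayPt} (hc : c ∈ Sup) : c.card % 4 = 0 := by
  rcases card_of_mem_Sup hc with h | h | h | h | h <;> rw [h]

theorem inter_card_even {c d : Finset GolayPt} (hc : c ∈ Sup) (hd : d ∈ Sup) :
    (c ∩ d).card % 2 = 0 := by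
  have h1 := card_symmDiff_add c d
  have := card_mod_four hc; have := card_mod_four hd
  have := card_mod_four (symmDiff_mem_Sup hc hd)
  omega

theorem sum_ite_mem' (c : Finset GolayPt) (a b : ℤ) :
    ∑ i, (if i ∈ c then a else b) = a * c.card + b * (24 - c.card) := by
  rw [sum_ite, sum_const, sum_const]
  have h1 : (univ.filter fun i => i ∈ c) = c := by ext; simp
  have h2 : (univ.filter fun i => i ∉ c) = cᶜ := by ext; simp
  have h3 : cᶜ.card + c.card = 24 := card_compl_add_card c
  rw [h1, h2]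
  have : (cᶜ.card : ℤ) = 24 - c.card := by omega
  simp only [nsmul_eq_mul, this]; ring

/-! ### Generators -/

/-- twice the indicator of a set -/
def two (c : Finset GolayPt) : V := fun i => if i ∈ c then 2 else 0
/-- `4 e_∞ + 4 e_i` -/
def four (i : GolayPt) : V := Pi.single none 4 + Pi.single i 4
/-- `(-3, 1^23)` -/
def odd0 : V := fun i => if i = none then -3 else 1

theorem two_mem {c : Finset GolayPt} (hc : c ∈ Sup) : two c ∈ leechLattice := by
  refine mem_of_even hc (fun i => by unfold two; split_ifs <;> rfl) ?_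
  have := card_mod_four hc
  unfold two; rw [sum_ite_mem']; omega

theorem four_smul_mem {y : V} (hy : (∑ i, y i) % 2 = 0) : (4 : ℤ) • y ∈ leechLattice := by
  refine mem_of_even empty_mem_Sup (fun i => by simp) ?_
  simp only [Pi.smul_apply, smul_eq_mul, ← mul_sum]; omega

theorem odd0_mem : odd0 ∈ leechLattice :=
  mem_of_odd empty_mem_Sup (by decide) (by decide)

theorem four_mem (i : GolayPt) : four i ∈ leechLattice := by
  have : four i = (4 : ℤ) • (Pi.single none 1 + Pi.single i 1 : V) := by
    rw [smul_add, ← Pi.single_smul, ← Pi.single_smul]; rfl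
  rw [this]
  apply four_smul_mem
  simp [sum_add_distrib]

theorem eight_single_mem (i : GolayPt) : (Pi.single i 8 : V) ∈ leechLattice := by
  have : (Pi.single i 8 : V) = (4 : ℤ) • (Pi.single i 2 : V) := by
    rw [← Pi.single_smul]; rfl
  rw [this]
  apply four_smul_mem
  simp

theorem four_smul_mem_of {K : AddSubgroup V} (h4 : ∀ i, four i ∈ K) {y : V}
    (hy : (∑ i, y i) % 2 = 0) : (4 : ℤ) • y ∈ K := by
  have h : (4 : ℤ) • y = ∑ i, y i • four i - ((∑ i, y i) / 2) • four none := by
    funext j
    simp only [four, Pi.smul_apply, Pi.sub_apply, Finset.sum_apply, Pi.add_apply, smul_eq_mul,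
      mul_add, sum_add_distrib, Pi.single_apply, mul_ite, mul_zero, sum_ite_eq, mem_univ, if_true]
    split_ifs with hj
    · rw [← sum_mul]; omega
    · simp; ring
  rw [h]
  exact K.sub_mem (K.sum_mem fun i _ => K.zsmul_mem (h4 i) _) (K.zsmul_mem (h4 _) _)

/-- a subgroup containing the standard generators contains the lattice -/
theorem leech_le {K : AddSubgroup V} (h0 : odd0 ∈ K) (h2 : ∀ b ∈ basisW, two (ts b) ∈ K)
    (h4 : ∀ i, four i ∈ K) : leechLattice ≤ K := by
  have htwo : ∀ c ∈ Sup, two c ∈ K := by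
    intro c hc
    rw [← ts_mk c]
    have := isC_induction (P := fun m => isC m = true ∧ two (ts m) ∈ K) ?_ ?_ ?_ ((mem_Sup c).1 hc)
    · exact this.2
    · refine ⟨isC_zero, ?_⟩
      have : two (ts 0) = 0 := by funext i; simp [two]
      rw [this]; exact K.zero_mem
    · rintro a b ⟨ha, ha'⟩ ⟨hb, hb'⟩
      refine ⟨isC_xor ha hb, ?_⟩
      have hA : ts a ∈ Sup := by rwa [mem_Sup, mk_ts (isC_lt ha)]
      have hB : ts b ∈ Sup := by rwa [mem_Sup, mk_ts (isC_lt hb)]
      have : two (ts (a ^^^ b)) = two (ts a) + two (ts b) -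
          (4 : ℤ) • fun i => if i ∈ ts a ∩ ts b then 1 else 0 := by
        funext i
        simp only [two, Enc.mem_toSet, Nat.testBit_xor, Pi.sub_apply, Pi.add_apply, Pi.smul_apply,
          mem_inter]
        cases a.testBit (E24.enc i) <;> cases b.testBit (E24.enc i) <;> simp
      rw [this]
      refine K.sub_mem (K.add_mem ha' hb') (four_smul_mem_of h4 ?_)
      have := inter_card_even hA hB
      rw [sum_ite_mem']; omega
    · intro b hb
      exact ⟨(by revert b; decide +kernel), h2 b hb⟩
  have heven : ∀ x : V, (∃ c ∈ Sup, (∀ i, x i % 4 = if i ∈ c then 2 else 0) ∧ (∑ i, x i) % 8 = 0) →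
      x ∈ K := by
    rintro x ⟨c, hc, h1, h2⟩
    have hx : x = two c + (4 : ℤ) • fun i => (x i - two c i) / 4 := by
      funext i; have := h1 i
      simp only [two, Pi.add_apply, Pi.smul_apply, smul_eq_mul]
      split_ifs at * <;> omega
    rw [hx]
    refine K.add_mem (htwo c hc) (four_smul_mem_of h4 ?_)
    have h3 := congrArg (fun v : V => ∑ i, v i) hx
    simp only [Pi.add_apply, Pi.smul_apply, smul_eq_mul, sum_add_distrib, ← mul_sum] at h3
    have h5 : ∑ i, two c i = 2 * c.card + 0 * (24 - c.card) := sum_ite_mem' c 2 0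
    have := card_mod_four hc
    omega
  intro x hx
  rcases (mem_leech_iff.1 hx).cases with h | ⟨c, hc, h1, h2⟩
  · exact heven x h
  · have : x - odd0 ∈ K := by
      refine heven _ ⟨c, hc, fun i => ?_, ?_⟩
      · have := h1 i
        simp only [Pi.sub_apply, odd0]
        split_ifs at * <;> omega
      · have : ∑ i, odd0 i = 20 := by decide
        simp only [Pi.sub_apply, sum_sub_distrib]; omega
    simpa using K.add_mem this h0

/-! ### Norms and inner products -/

theorem sqNorm_eq_dot (x : V) : sqNorm x = dotInt x x := sum_congr rfl fun i _ => sq (x i)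

theorem dot_comm (x y : V) : dotInt x y = dotInt y x := sum_congr rfl fun i _ => mul_comm _ _

theorem dot_add_right (x y z : V) : dotInt x (y + z) = dotInt x y + dotInt x z := by
  simp [dotInt, mul_add, sum_add_distrib]
theorem dot_add_left (x y z : V) : dotInt (x + y) z = dotInt x z + dotInt y z := by
  simp [dotInt, add_mul, sum_add_distrib]
theorem dot_neg_right (x y : V) : dotInt x (-y) = -dotInt x y := by simp [dotInt]
theorem dot_neg_left (x y : V) : dotInt (-x) y = -dotInt x y := by simp [dotInt]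
theorem dot_sub_right (x y z : V) : dotInt x (y - z) = dotInt x y - dotInt x z := by
  simp [dotInt, mul_sub, sum_sub_distrib]
theorem dot_sub_left (x y z : V) : dotInt (x - y) z = dotInt x z - dotInt y z := by
  simp [dotInt, sub_mul, sum_sub_distrib]
theorem dot_smul_right (c : ℤ) (x y : V) : dotInt x (c • y) = c * dotInt x y := by
  simp only [dotInt, Pi.smul_apply, smul_eq_mul, mul_sum]
  exact sum_congr rfl fun i _ => by ring
theorem dot_smul_left (c : ℤ) (x y : V) : dotInt (c • x) y = c * dotInt x y := by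
  rw [dot_comm, dot_smul_right, dot_comm]

theorem dot_single_left (i : GolayPt) (a : ℤ) (y : V) : dotInt (Pi.single i a) y = a * y i := by
  unfold dotInt
  rw [sum_eq_single i] <;> simp +contextual [Pi.single_apply]
theorem dot_single_right (i : GolayPt) (a : ℤ) (y : V) : dotInt y (Pi.single i a) = a * y i := by
  rw [dot_comm, dot_single_left]

theorem sqNorm_add (x y : V) : sqNorm (x + y) = sqNorm x + sqNorm y + 2 * dotInt x y := by
  simp only [sqNorm_eq_dot, dot_add_left, dot_add_right, dot_comm y x]; ring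
theorem sqNorm_sub (x y : V) : sqNorm (x - y) = sqNorm x + sqNorm y - 2 * dotInt x y := by
  simp only [sqNorm_eq_dot, dot_sub_left, dot_sub_right, dot_comm y x]; ring
theorem sqNorm_neg (x : V) : sqNorm (-x) = sqNorm x := by simp [sqNorm]
theorem sqNorm_smul (c : ℤ) (x : V) : sqNorm (c • x) = c ^ 2 * sqNorm x := by
  simp only [sqNorm_eq_dot, dot_smul_left, dot_smul_right]; ring
theorem sqNorm_nonneg (x : V) : 0 ≤ sqNorm x := sum_nonneg fun _ _ => sq_nonneg _

theorem sq_le_sqNorm (x : V) (i : GolayPt) : x i ^ 2 ≤ sqNorm x :=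
  single_le_sum (f := fun i => x i ^ 2) (fun _ _ => sq_nonneg _) (mem_univ i)

theorem eq_zero_of_sqNorm {x : V} (h : sqNorm x = 0) : x = 0 := by
  funext i; have := sq_le_sqNorm x i; rw [h] at this
  exact pow_eq_zero_iff (two_ne_zero) |>.1 (le_antisymm this (sq_nonneg _))

theorem bd_of_sqNorm {x : V} (h : sqNorm x ≤ 64) : Bd 8 x := fun i => by
  have := sq_le_sqNorm x i
  constructor <;> nlinarith

theorem finite_sqNorm_le : {x : V | sqNorm x ≤ 64}.Finite := by
  refine (Set.Finite.pi' (t := fun _ => Set.Icc (-8 : ℤ) 8) fun _ => Set.finite_Icc _ _).subset ?_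
  intro x hx i
  exact bd_of_sqNorm hx i

/-! ### Short vectors -/

/-- the vectors of shape `(∓3, ±1^23)` -/
def vc (c : Finset GolayPt) (i : GolayPt) : V :=
  fun j => if j = i then (if j ∈ c then 3 else -3) else (if j ∈ c then -1 else 1)
/-- the vectors with entries `±2` on `O`, minus signs on `S` -/
def vb (O S : Finset GolayPt) : V := fun j => if j ∈ O then (if j ∈ S then -2 else 2) else 0
/-- the vectors of shape `(±4^2, 0^22)` -/
def va (i j : GolayPt) (s t : Bool) : V :=
  fun k => if k = i then (if s then -4 else 4) else if k = j then (if t then -4 else 4) else 0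

theorem sum_erase_eq (f : GolayPt → ℤ) (i : GolayPt) :
    ∑ j, f j = f i + ∑ j ∈ univ.erase i, f j := (add_sum_erase _ _ (mem_univ i)).symm

theorem sum_vb {O S : Finset GolayPt} (h : S ⊆ O) : ∑ j, vb O S j = 2 * O.card - 4 * S.card := by
  have : ∀ j, vb O S j = (if j ∈ O then 2 else 0) - (if j ∈ S then 4 else 0) := fun j => by
    have := @h j
    unfold vb; split_ifs <;> simp_all
  simp only [this, sum_sub_distrib, sum_ite_mem']; ring

theorem sqNorm_vb (O S : Finset GolayPt) : sqNorm (vb O S) = 4 * O.card := by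
  have : ∀ j, vb O S j ^ 2 = if j ∈ O then 4 else 0 := fun j => by
    unfold vb; split_ifs <;> rfl
  simp only [sqNorm, this, sum_ite_mem']; ring

theorem vb_mem {O S : Finset GolayPt} (hO : O ∈ Sup) (h : S ⊆ O) (hS : S.card % 2 = 0) :
    vb O S ∈ leechLattice := by
  refine mem_of_even hO (fun i => by unfold vb; split_ifs <;> rfl) ?_
  have := card_mod_four hO
  rw [sum_vb h]; omega

theorem vc_eq (c : Finset GolayPt) (i j : GolayPt) :
    vc c i j = (if j ∈ c then -1 else 1) + if j = i then (if i ∈ c then 4 else -4) else 0 := by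
  unfold vc; split_ifs <;> simp_all

theorem sqNorm_vc (c : Finset GolayPt) (i : GolayPt) : sqNorm (vc c i) = 32 := by
  have : ∀ j, vc c i j ^ 2 = 1 + if j = i then 8 else 0 := fun j => by
    unfold vc; split_ifs <;> rfl
  simp [sqNorm, this, sum_add_distrib]

theorem vc_mem {c : Finset GolayPt} (hc : c ∈ Sup) (i : GolayPt) : vc c i ∈ leechLattice := by
  refine mem_of_odd hc (fun i => by unfold vc; split_ifs <;> rfl) ?_
  have := card_mod_four hc
  simp only [vc_eq, sum_add_distrib, sum_ite_mem', sum_ite_eq', mem_univ, if_true]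
  split_ifs <;> omega

theorem va_eq {i j : GolayPt} (h : i ≠ j) (s t : Bool) (k : GolayPt) :
    va i j s t k = (if k = i then (if s then -4 else 4) else 0) +
      if k = j then (if t then -4 else 4) else 0 := by
  unfold va; split_ifs <;> simp_all

theorem sqNorm_va {i j : GolayPt} (h : i ≠ j) (s t : Bool) : sqNorm (va i j s t) = 32 := by
  have : ∀ k, va i j s t k ^ 2 = (if k = i then 16 else 0) + if k = j then 16 else 0 := fun k => by
    unfold va; split_ifs <;> simp_all
  simp [sqNorm, this, sum_add_distrib]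

theorem va_mem {i j : GolayPt} (h : i ≠ j) (s t : Bool) : va i j s t ∈ leechLattice := by
  refine mem_of_even empty_mem_Sup (fun k => by unfold va; split_ifs <;> simp_all) ?_
  simp only [va_eq h, sum_add_distrib, sum_ite_eq', mem_univ, if_true]
  split_ifs <;> rfl

/-- a sum of nonnegative integers that vanishes -/
theorem all_zero {s : Finset GolayPt} {f : GolayPt → ℤ} (h : ∀ i, 0 ≤ f i) (h0 : ∑ i ∈ s, f i ≤ 0) :
    ∀ i ∈ s, f i = 0 :=
  (sum_eq_zero_iff_of_nonneg fun i _ => h i).1 (le_antisymm h0 (sum_nonneg fun i _ => h i))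

theorem exists_ne_zero {s : Finset GolayPt} {f : GolayPt → ℤ} (h0 : ∑ i ∈ s, f i ≠ 0) :
    ∃ i ∈ s, f i ≠ 0 := by
  by_contra h
  push Not at h
  exact h0 (sum_eq_zero h)

theorem sq_odd {a : ℤ} (h : a % 2 = 1) : a = 1 ∨ a = -1 ∨ a = 3 ∨ a = -3 ∨ 25 ≤ a ^ 2 := by
  by_contra hc
  push Not at hc
  have : a ≤ 4 := by nlinarith [hc.2.2.2.2]
  have : -4 ≤ a := by nlinarith [hc.2.2.2.2]
  omega

theorem sq_two {a : ℤ} (h : a % 4 = 2) : a = 2 ∨ a = -2 ∨ 36 ≤ a ^ 2 := by
  by_contra hc
  push Not at hc
  have : a ≤ 5 := by nlinarith [hc.2.2]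
  have : -5 ≤ a := by nlinarith [hc.2.2]
  omega

theorem sq_four {a : ℤ} (h : a % 4 = 0) : a = 0 ∨ a = 4 ∨ a = -4 ∨ 64 ≤ a ^ 2 := by
  by_contra hc
  push Not at hc
  have : a ≤ 7 := by nlinarith [hc.2.2.2]
  have : -7 ≤ a := by nlinarith [hc.2.2.2]
  omega

/-- excess of the square of a coordinate of an even vector -/
theorem even_excess {x : V} {c : Finset GolayPt} :
    sqNorm x = 4 * c.card + ∑ i, (x i ^ 2 - if i ∈ c then 4 else 0) := by
  simp only [sqNorm, sum_sub_distrib, sum_ite_mem']; ring

theorem odd_excess {x : V} : sqNorm x = 24 + ∑ i, (x i ^ 2 - 1) := by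
  simp [sqNorm, sum_sub_distrib]

theorem even_excess_nonneg {x : V} {c : Finset GolayPt}
    (h1 : ∀ i, x i % 4 = if i ∈ c then 2 else 0) (i : GolayPt) :
    0 ≤ x i ^ 2 - if i ∈ c then 4 else 0 := by
  have := h1 i
  split_ifs at *
  · rcases sq_two this with h | h | h
    · rw [h]; norm_num
    · rw [h]; norm_num
    · omega
  · simpa using sq_nonneg (x i)

theorem odd_excess_nonneg {x : V} {c : Finset GolayPt}
    (h1 : ∀ i, x i % 4 = if i ∈ c then 3 else 1) (i : GolayPt) : 0 ≤ x i ^ 2 - 1 := by
  have := h1 i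
  have : x i ≠ 0 := by split_ifs at * <;> omega
  have : 0 < x i ^ 2 := by positivity
  omega

/-- an even vector whose norm is four times the size of its code word -/
theorem eq_vb {x : V} {c : Finset GolayPt} (hc : c ∈ Sup)
    (h1 : ∀ i, x i % 4 = if i ∈ c then 2 else 0) (h2 : (∑ i, x i) % 8 = 0)
    (h : sqNorm x ≤ 4 * c.card) : ∃ S ⊆ c, S.card % 2 = 0 ∧ x = vb c S := by
  have h3 := all_zero (s := univ) (even_excess_nonneg h1) (by rw [even_excess (c := c)] at h; omega)
  have hx : x = vb c (c.filter fun i => x i = -2) := by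
    funext i
    have h4 := h3 i (mem_univ i); have h5 := h1 i
    unfold vb
    by_cases hi : i ∈ c
    · simp only [hi, if_true, mem_filter, true_and] at *
      rcases sq_two h5 with h | h | h
      · simp [h]
      · simp [h]
      · omega
    · simp only [hi, if_false] at *
      simpa using h4
  refine ⟨_, filter_subset _ _, ?_, hx⟩
  rw [hx, sum_vb (filter_subset _ _)] at h2
  have := card_mod_four hc
  omega

theorem exists_va {x : V} (h1 : ∀ i, x i % 4 = 0) (h2 : (∑ i, x i) % 8 = 0)
    (h : sqNorm x ≤ 32) (h0 : x ≠ 0) : ∃ i j s t, pn j < pn i ∧ x = va i j s t := by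
  obtain ⟨i, hi⟩ : ∃ i, x i ≠ 0 := by
    by_contra hc; push Not at hc; exact h0 (funext hc)
  have hs := sum_erase_eq (fun j => x j ^ 2) i
  have hi4 : x i = 4 ∨ x i = -4 := by
    have := sq_le_sqNorm x i
    rcases sq_four (h1 i) with h | h | h | h <;> omega
  have hi2 : x i ^ 2 = 16 := by rcases hi4 with h | h <;> rw [h] <;> rfl
  obtain ⟨j, hj, hj0⟩ : ∃ j ∈ univ.erase i, x j ≠ 0 := by
    apply exists_ne_zero
    intro hc
    rw [sum_erase_eq x i, hc] at h2
    omega
  have hs2 := add_sum_erase _ (fun j => x j ^ 2) hj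
  have hji : j ≠ i := ne_of_mem_erase hj
  have hn : 0 ≤ ∑ k ∈ (univ.erase i).erase j, x k ^ 2 := sum_nonneg fun _ _ => sq_nonneg _
  have hj4 : x j = 4 ∨ x j = -4 := by
    unfold sqNorm at h
    rcases sq_four (h1 j) with h | h | h | h <;> omega
  have hj2 : x j ^ 2 = 16 := by rcases hj4 with h | h <;> rw [h] <;> rfl
  have h3 := all_zero (s := (univ.erase i).erase j) (f := fun k => x k ^ 2) (fun _ => sq_nonneg _)
    (by unfold sqNorm at h; omega)
  have key : ∀ i j : GolayPt, (x i = 4 ∨ x i = -4) → (x j = 4 ∨ x j = -4) →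
      (∀ k, k ≠ i → k ≠ j → x k = 0) → x = va i j (decide (x i = -4)) (decide (x j = -4)) := by
    intro i j hi hj hk
    funext k
    unfold va
    by_cases h1 : k = i
    · subst h1; rcases hi with h | h <;> simp [h]
    by_cases h2 : k = j
    · subst h2; rcases hj with h | h <;> simp [h, h1]
    · simp [h1, h2, hk k h1 h2]
  have hk : ∀ k, k ≠ i → k ≠ j → x k = 0 := fun k h1 h2 => by
    simpa using h3 k (by simp [h1, h2])
  rcases lt_trichotomy (pn j) (pn i) with hlt | hlt | hlt
  · exact ⟨i, j, _, _, hlt, key i j hi4 hj4 hk⟩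
  · exact absurd (pn_inj hlt) hji
  · exact ⟨j, i, _, _, hlt, key j i hj4 hi4 fun k h1 h2 => hk k h2 h1⟩

theorem exists_vc {x : V} {c : Finset GolayPt} (hc : c ∈ Sup)
    (h1 : ∀ i, x i % 4 = if i ∈ c then 3 else 1) (h2 : (∑ i, x i) % 8 = 4)
    (h : sqNorm x ≤ 32) : ∃ i, x = vc c i := by
  have hn := odd_excess_nonneg h1
  have hcases : ∀ i, x i ^ 2 - 1 = 0 → x i = if i ∈ c then -1 else 1 := fun i hi => by
    have := h1 i
    have h3 : (x i - 1) * (x i + 1) = 0 := by linarith
    rcases mul_eq_zero.1 h3 with h | h <;> split_ifs at * <;> omega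
  obtain ⟨i, -, hi⟩ : ∃ i ∈ univ, x i ^ 2 - 1 ≠ 0 := by
    apply exists_ne_zero
    intro h0
    have h3 := all_zero hn h0.le
    have : ∑ i, x i = ∑ i, if i ∈ c then -1 else 1 :=
      sum_congr rfl fun i hi => hcases i (h3 i hi)
    rw [this, sum_ite_mem'] at h2
    have := card_mod_four hc
    omega
  refine ⟨i, ?_⟩
  rw [odd_excess, sum_erase_eq _ i] at h
  have hs : 0 ≤ ∑ j ∈ univ.erase i, (x j ^ 2 - 1) := sum_nonneg fun j _ => hn j
  have hi3 : x i = 3 ∨ x i = -3 := by
    have := h1 i
    rcases sq_odd (a := x i) (by split_ifs at * <;> omega) with h | h | h | h | h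
    · simp [h] at hi
    · simp [h] at hi
    · exact Or.inl h
    · exact Or.inr h
    · omega
  have hi2 : x i ^ 2 = 9 := by rcases hi3 with h | h <;> rw [h] <;> rfl
  have h3 := all_zero (s := univ.erase i) hn (by omega)
  funext j
  unfold vc
  by_cases hj : j = i
  · subst hj
    have := h1 j
    simp only [if_true]
    split_ifs at * <;> omega
  · simp only [hj, if_false]
    exact hcases j (h3 j (by simp [hj]))

/-- classification of the nonzero lattice vectors of norm at most 32 -/
theorem short_cases {x : V} (hx : x ∈ leechLattice) (h : sqNorm x ≤ 32) (h0 : x ≠ 0) :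
    (∃ c ∈ Sup, ∃ i, x = vc c i) ∨
    (∃ O ∈ octads, ∃ S ⊆ O, S.card % 2 = 0 ∧ x = vb O S) ∨
    (∃ i j s t, pn j < pn i ∧ x = va i j s t) := by
  rcases (mem_leech_iff.1 hx).cases with ⟨c, hc, h1, h2⟩ | ⟨c, hc, h1, h2⟩
  · right
    have h3 : 4 * (c.card : ℤ) ≤ sqNorm x := by
      rw [even_excess (c := c)]
      have := sum_nonneg fun i (_ : i ∈ univ) => even_excess_nonneg h1 i
      omega
    rcases card_of_mem_Sup hc with h4 | h4 | h4 | h4 | h4
    · right
      rw [card_eq_zero] at h4
      subst h4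
      exact exists_va (by simpa using h1) h2 h h0
    · left
      exact ⟨c, ⟨hc, h4⟩, eq_vb hc h1 h2 (by rw [h4]; exact h)⟩
    all_goals omega
  · left
    exact ⟨c, hc, exists_vc hc h1 h2 h⟩

theorem ne_of_pn_lt {i j : GolayPt} (h : pn j < pn i) : i ≠ j := fun e => by rw [e] at h; omega

theorem min_norm {x : V} (hx : x ∈ leechLattice) (h0 : x ≠ 0) : 32 ≤ sqNorm x := by
  by_contra h
  push Not at h
  rcases short_cases hx h.le h0 with ⟨c, -, i, rfl⟩ | ⟨O, hO, S, -, -, rfl⟩ | ⟨i, j, s, t, hij, rfl⟩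
  · rw [sqNorm_vc] at h; omega
  · rw [sqNorm_vb, hO.2] at h; omega
  · rw [sqNorm_va (ne_of_pn_lt hij)] at h; omega

/-- the minimal vectors -/
def L2 : Set V := {x | x ∈ leechLattice ∧ sqNorm x = 32}

theorem L2_finite : L2.Finite := finite_sqNorm_le.subset fun x hx => by
  have := hx.2; simp only [Set.mem_ofPred_eq]; omega

theorem mem_L2_iff {x : V} : x ∈ L2 ↔ (∃ c ∈ Sup, ∃ i, x = vc c i) ∨
    (∃ O ∈ octads, ∃ S ⊆ O, S.card % 2 = 0 ∧ x = vb O S) ∨
    (∃ i j s t, pn j < pn i ∧ x = va i j s t) := by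
  constructor
  · rintro ⟨hx, h⟩
    exact short_cases hx h.le (by rintro rfl; simp [sqNorm] at h)
  · rintro (⟨c, hc, i, rfl⟩ | ⟨O, hO, S, hS, hS', rfl⟩ | ⟨i, j, s, t, hij, rfl⟩)
    · exact ⟨vc_mem hc i, sqNorm_vc c i⟩
    · exact ⟨vb_mem hO.1 hS hS', by rw [sqNorm_vb, hO.2]; rfl⟩
    · exact ⟨va_mem (ne_of_pn_lt hij) s t, sqNorm_va (ne_of_pn_lt hij) s t⟩

theorem closure_L2 : AddSubgroup.closure L2 = leechLattice := by
  refine le_antisymm ((AddSubgroup.closure_le _).2 fun x hx => hx.1) (leech_le ?_ ?_ ?_)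
  · exact AddSubgroup.subset_closure ⟨odd0_mem, by decide⟩
  · intro b hb
    have : isOct b = true := by revert b; decide +kernel
    have ho := ts_mem_octads this
    refine AddSubgroup.subset_closure ⟨two_mem ho.1, ?_⟩
    have : two (ts b) = vb (ts b) ∅ := by funext i; simp [two, vb]
    rw [this, sqNorm_vb, ho.2]; rfl
  · intro i
    by_cases hi : i = none
    · subst hi
      have : four none = va none (some 0) false false + va none (some 0) false true := by decide
      rw [this]
      exact AddSubgroup.add_mem _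
        (AddSubgroup.subset_closure ⟨va_mem (by decide) _ _, sqNorm_va (by decide) _ _⟩)
        (AddSubgroup.subset_closure ⟨va_mem (by decide) _ _, sqNorm_va (by decide) _ _⟩)
    · have : four i = va none i false false := by revert i; decide
      rw [this]
      exact AddSubgroup.subset_closure ⟨va_mem (Ne.symm hi) _ _, sqNorm_va (Ne.symm hi) _ _⟩

/-- inner products in the lattice are multiples of 8 -/
theorem eight_dvd_dot {x y : V} (hx : x ∈ leechLattice) (hy : y ∈ leechLattice) :
    dotInt x y % 8 = 0 := by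
  let K : AddSubgroup V :=
    { carrier := {x | dotInt x y % 8 = 0}
      zero_mem' := by simp [dotInt]
      add_mem' := fun {a b} ha hb => by
        simp only [Set.mem_ofPred_eq, dot_add_left] at *; omega
      neg_mem' := fun {a} ha => by simp only [Set.mem_ofPred_eq, dot_neg_left] at *; omega }
  have hy' := (mem_leech_iff.1 hy).cases
  refine leech_le (K := K) ?_ ?_ ?_ hx
  · show dotInt odd0 y % 8 = 0
    have : dotInt odd0 y = ∑ i, y i - 4 * y none := by
      have : ∀ i, odd0 i * y i = y i - if i = none then 4 * y none else 0 := fun i => by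
        unfold odd0; split_ifs with h
        · rw [h]; ring
        · ring
      simp [dotInt, this]
    rcases hy' with ⟨c, -, h1, h2⟩ | ⟨c, -, h1, h2⟩ <;> have := h1 none <;> split_ifs at * <;> omega
  · intro b hb
    have hB : ts b ∈ Sup := by
      have : isC b = true := by revert b; decide +kernel
      rwa [mem_Sup, mk_ts (isC_lt this)]
    generalize ts b = d at hB
    show dotInt (two d) y % 8 = 0
    have h4 := card_mod_four hB
    rcases hy' with ⟨c, hc, h1, -⟩ | ⟨c, hc, h1, -⟩
    · have : dotInt (two d) y = ∑ i, (if i ∈ d ∩ c then 4 else 0) +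
          8 * ∑ i, if i ∈ d then y i / 4 else 0 := by
        rw [mul_sum, ← sum_add_distrib]
        refine sum_congr rfl fun i _ => ?_
        have := h1 i
        by_cases h : i ∈ c <;> by_cases h' : i ∈ d <;> simp [two, h, h'] at * <;> omega
      have h5 := inter_card_even hB hc
      rw [this, sum_ite_mem']; omega
    · have : dotInt (two d) y = ∑ i, (if i ∈ d ∩ c then 4 else 0) + ∑ i, (if i ∈ d then 2 else 0) +
          8 * ∑ i, if i ∈ d then y i / 4 else 0 := by
        rw [mul_sum, ← sum_add_distrib, ← sum_add_distrib]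
        refine sum_congr rfl fun i _ => ?_
        have := h1 i
        by_cases h : i ∈ c <;> by_cases h' : i ∈ d <;> simp [two, h, h'] at * <;> omega
      have h5 := inter_card_even hB hc
      rw [this, sum_ite_mem', sum_ite_mem']; omega
  · intro i
    show dotInt (four i) y % 8 = 0
    have : dotInt (four i) y = 4 * y none + 4 * y i := by
      rw [four, dot_add_left, dot_single_left, dot_single_left]
    rcases hy' with ⟨c, -, h1, h2⟩ | ⟨c, -, h1, h2⟩ <;> have := h1 none <;> have := h1 i <;>
      split_ifs at * <;> omega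

/-- norms in the lattice are multiples of 16 -/
theorem sixteen_dvd_sqNorm {x : V} (hx : x ∈ leechLattice) : sqNorm x % 16 = 0 := by
  rw [← closure_L2] at hx
  induction hx using AddSubgroup.closure_induction with
  | mem x hx => rw [hx.2]; rfl
  | zero => simp [sqNorm]
  | add x y hx' hy' hx hy =>
    rw [closure_L2] at hx' hy'
    have := eight_dvd_dot hx' hy'
    rw [sqNorm_add]; omega
  | neg x _ hx => rwa [sqNorm_neg]

end

end CfsgH6
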