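/-
First pass over the minimal vectors: part 3.
-/
import Cfsg.Agent.H6.PA0

set_option autoImplicit false
set_option linter.unusedSimpArgs false
set_option linter.unusedVariables false
set_option maxRecDepth 100000

namespace CfsgH6

open CfsgH5 Cfsg Finset

noncomputable section

theorem pA_8 : sumP fA 8 2048 = 0x1a000000000000000000000000000000000000000000000000f8000000000000000000000000000000000000000000000001dc000000000000000000000000000000000000000000000000f80000000000000000000000000000000000000000000000001a00000000000000000000000000000000000000000000000000000000000000000000000000000000000000000000000000000 := by decide +kernel

theorem pA_9 : sumP fA 8 2304 = 0xe000000000000000000000000000000000000000000000000a800000000000000000000000000000000000000000000000154000000000000000000000000000000000000000000000000a80000000000000000000000000000000000000000000000000e00000000000000000000000000000000000000000000000000000000000000000000000000000000000000000000000000000 := by decide +kernel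

theorem pA_10 : sumP fA 8 2560 = 0xe000000000000000000000000000000000000000000000000a800000000000000000000000000000000000000000000000154000000000000000000000000000000000000000000000000a80000000000000000000000000000000000000000000000000e00000000000000000000000000000000000000000000000000000000000000000000000000000000000000000000000000000 := by decide +kernel

theorem pA_11 : sumP fA 8 2816 = 0xa00000000000000000000000000000000000000000000000078000000000000000000000000000000000000000000000000fc000000000000000000000000000000000000000000000000780000000000000000000000000000000000000000000000000a00000000000000000000000000000000000000000000000000000000000000000000000000000000000000000000000000000 := by decide +kernel

end

end CfsgH6
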