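/-
Passes over the minimal vectors, or over certified lists of them.
-/
import Cfsg.Agent.H6.Elt

set_option autoImplicit false
set_option linter.unusedSimpArgs false
set_option linter.unusedVariables false

namespace CfsgH6

open CfsgH5 Cfsg Finset

noncomputable section

theorem digit_sum {W : ℕ} (hW : 0 < W) (T : ℕ) (c : ℕ → ℕ) (hc : ∀ s, c s < W) (t : ℕ) (ht : t < T) :
    (∑ s ∈ range T, c s * W ^ s) / W ^ t % W = c t := by
  induction t generalizing T c with
  | zero =>
    obtain ⟨T, rfl⟩ : ∃ T', T = T' + 1 := ⟨T - 1, by omega⟩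
    rw [sum_range_succ']
    simp only [pow_succ, ← mul_assoc, ← sum_mul, pow_zero, Nat.div_one, mul_one]
    rw [Nat.mul_add_mod_self_right, Nat.mod_eq_of_lt (hc 0)]
  | succ t ih =>
    obtain ⟨T, rfl⟩ : ∃ T', T = T' + 1 := ⟨T - 1, by omega⟩
    rw [sum_range_succ', pow_succ' W t, ← Nat.div_div_eq_div_mul]
    simp only [pow_succ, ← mul_assoc, ← sum_mul, pow_zero, mul_one]
    rw [add_comm, Nat.add_mul_div_right _ _ hW, Nat.div_eq_of_lt (hc 0), zero_add]
    exact ih T (fun s => c (s + 1)) (fun s => hc _) (by omega)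

theorem count_of_sum {α : Type*} {W : ℕ} (F : Finset α) (hF : F.card < W) (e : α → ℕ) (t : ℕ) :
    (F.filter fun x => e x = t).card = (∑ x ∈ F, W ^ e x) / W ^ t % W := by
  have hT : ∀ x ∈ F, e x ∈ range (F.sup e + t + 1) := fun x hx => by
    have := le_sup (f := e) hx
    rw [mem_range]; omega
  rw [← sum_fiberwise_of_maps_to hT]
  have : ∀ s ∈ range (F.sup e + t + 1), ∑ x ∈ F.filter (fun x => e x = s), W ^ e x =
      (F.filter fun x => e x = s).card * W ^ s := fun s _ => by
    rw [sum_congr rfl fun x hx => by rw [(mem_filter.1 hx).2], sum_const, smul_eq_mul]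
  rw [sum_congr rfl this, digit_sum (by omega) _ (fun s => (F.filter fun x => e x = s).card)
    (fun s => lt_of_le_of_lt (card_filter_le _ _) hF) t (by omega)]

theorem card_L2F_lt : L2F.card < 2 ^ 100 := by
  have : L2F ⊆ Fintype.piFinset fun _ => Icc (-8 : ℤ) 8 := fun x hx => by
    rw [Fintype.mem_piFinset]
    intro i
    exact mem_Icc.2 (bd_of_sqNorm (by rw [(mem_L2F.1 hx).2]; norm_num) i)
  refine lt_of_le_of_lt (card_le_card this) ?_
  rw [Fintype.card_piFinset]
  simp

/-- digit `t` in base `2 ^ 100` -/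
def DW (S t : ℕ) : ℕ := Nat.mod (Nat.shiftRight S (Nat.mul 100 t)) (Nat.pow 2 100)

theorem DW_eq (S t : ℕ) : DW S t = S / (2 ^ 100) ^ t % 2 ^ 100 := by
  show (S >>> (100 * t)) % 2 ^ 100 = _
  rw [Nat.shiftRight_eq_div_pow, pow_mul]

/-- the weight of a code: its class if the test holds, else class 15 -/
def wt (κ : ℕ → ℕ) (dn : ℕ → ℕ → Bool) (n : ℕ) : ℕ :=
  force (κ n) fun c => Nat.shiftLeft 1 (Nat.mul 100 (bif' (dn c n) c 15))

theorem pass_spec {F : Finset V} (hF : F ⊆ L2F) {κ : ℕ → ℕ} {dn : ℕ → ℕ → Bool} {S : ℕ}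
    (hS : ∑ x ∈ F, wt κ dn (enc x) = S) (h15 : DW S 15 = 0) :
    (∀ x ∈ F, dn (κ (enc x)) (enc x) = true) ∧
      ∀ t, (F.filter fun x => κ (enc x) = t).card = DW S t := by
  have hc := lt_of_le_of_lt (card_le_card hF) card_L2F_lt
  have key := count_of_sum F hc fun x => bif' (dn (κ (enc x)) (enc x)) (κ (enc x)) 15
  have e : ∑ x ∈ F, (2 ^ 100) ^ bif' (dn (κ (enc x)) (enc x)) (κ (enc x)) 15 = S := by
    rw [← hS]
    refine sum_congr rfl fun x _ => ?_
    rw [wt, force_eq, ← pow_mul]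
    exact (Nat.one_shiftLeft _).symm
  simp only [e, ← DW_eq] at key
  have h1 : ∀ x ∈ F, dn (κ (enc x)) (enc x) = true := by
    intro x hx
    by_contra h
    have := key 15
    rw [h15, card_eq_zero, filter_eq_empty_iff] at this
    exact this hx (by rw [Bool.not_eq_true] at h; rw [h]; rfl)
  refine ⟨h1, fun t => ?_⟩
  rw [← key t]
  exact congrArg card (filter_congr fun x hx => by rw [h1 x hx]; rfl)

/-- counting lattice vectors through their codes -/
theorem ncard_LL (X : Set LL) (F : Finset V) (h : ∀ x : V, x ∈ F ↔ ∃ hx : x ∈ leechLattice, ⟨x, hx⟩ ∈ X) :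
    X.ncard = F.card := by
  rw [← Set.ncard_image_of_injective X Subtype.val_injective, ← Set.ncard_coe_finset]
  congr 1
  ext x
  simp [h]

theorem ncard_V (P : V → Prop) : {x : V | x ∈ leechLattice ∧ P x}.ncard = {x : LL | P x}.ncard := by
  rw [← Set.ncard_image_of_injective _ Subtype.val_injective]
  congr 1
  ext x
  simp [and_comm]

theorem ncard_smul (g : Co0) {X Y : Set LL} (h : ∀ x, x ∈ X ↔ g • x ∈ Y) : X.ncard = Y.ncard := by
  refine Set.ncard_congr (fun x _ => g • x) (fun x hx => (h x).1 hx)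
    (fun x y _ _ e => smul_left_cancel g e) fun y hy => ⟨g⁻¹ • y, ?_, smul_inv_smul g y⟩
  rwa [h, smul_inv_smul]

/-! ### Lists of minimal vectors -/

/-- the minimal vector given by a parameter -/
def pc (p : ℕ) : ℕ :=
  force (Nat.land (Nat.shiftRight p 2) 4095) fun k => force (Nat.shiftRight p 14) fun r =>
  bif' (band (Nat.beq (Nat.land p 3) 1) (Nat.beq (pop24 (cw k)) 8))
    (forceH (scw k) fun s => Nat.xor (Nat.xor ZERO (Nat.mul 2 s))
      (Nat.mul 12 (Nat.land s (scw (Nat.land r 4095)))))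
    (bif' (band (Nat.ble 2 (Nat.land p 3)) (band (Nat.blt r k) (Nat.blt k 24)))
      (Nat.xor (Nat.xor ZERO (U (bif' (Nat.beq (Nat.land p 3) 2) 12 4) k)) (U 4 r))
      (bif' (band (Nat.ble 2 (Nat.land p 3)) (band (Nat.blt (Nat.sub r 32) k) (Nat.blt k 24)))
        (Nat.xor (Nat.xor ZERO (U (bif' (Nat.beq (Nat.land p 3) 2) 12 4) k)) (U 12 (Nat.sub r 32)))
        (Nat.xor (Nat.xor NINES (Nat.mul 14 (scw k))) (U 12 (Nat.mod r 24)))))

theorem code_vb {k k' : ℕ} (hk : k < 4096) (hk' : k' < 4096) :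
    Nat.xor (Nat.xor ZERO (Nat.mul 2 (scw k))) (Nat.mul 12 (Nat.land (scw k) (scw k'))) =
      enc (vb (ts (cw k)) (ts (cw k) ∩ ts (cw k'))) := by
  have h1 := mul_scw_lt hk (c := 1) (by norm_num)
  rw [one_mul] at h1
  have h2 : Nat.land (scw k) (scw k') = ev 24 fun i => Nat.land (dg (scw k) i) (dg (scw k') i) := by
    rw [← ev_dg (n := 24) (m := Nat.land (scw k) (scw k')) (lt_of_le_of_lt Nat.and_le_left h1)]
    exact ev_congr fun i _ => dg_land _ _ _
  have h3 : ∀ i, i < 24 → 12 * Nat.land (dg (scw k) i) (dg (scw k') i) =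
      if pt i ∈ ts (cw k) ∩ ts (cw k') then 12 else 0 := fun i hi => by
    have a1 := dg_mul_scw hk (c := 1) (by norm_num) (pt i)
    have a2 := dg_mul_scw hk' (c := 1) (by norm_num) (pt i)
    rw [one_mul, pn_pt hi] at a1 a2
    rw [a1, a2]
    by_cases b1 : pt i ∈ ts (cw k) <;> by_cases b2 : pt i ∈ ts (cw k') <;>
      simp only [b1, b2, mem_inter, if_true, if_false, and_true, and_false, false_and] <;> rfl
  have h4 : ∀ i, i < 24 → 12 * Nat.land (dg (scw k) i) (dg (scw k') i) < 65536 := fun i hi => by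
    rw [h3 i hi]; split_ifs <;> omega
  have h5 : Nat.mul 12 (Nat.land (scw k) (scw k')) =
      ev 24 fun i => 12 * Nat.land (dg (scw k) i) (dg (scw k') i) := by
    rw [h2, ← mul_ev]; rfl
  rw [h5]
  apply eq_enc (xor_lt_pow (xor_lt_pow ZERO_lt (mul_scw_lt hk (by norm_num))) (ev_lt h4))
  intro j
  rw [dg_xor, dg_xor, dg_ZERO, dg_mul_scw hk (by norm_num), dg_ev h4, if_pos (pn_lt j),
    h3 _ (pn_lt j), pt_pn]
  by_cases b1 : j ∈ ts (cw k) <;> by_cases b2 : j ∈ ts (cw k') <;>
    simp only [vb, b1, b2, mem_inter, if_true, if_false, and_true, and_false, false_and] <;> rfl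

theorem pc_spec (p : ℕ) : ∃ x ∈ L2, pc p = enc x := by
  have hk := land_lt (Nat.shiftRight p 2)
  simp only [pc, force_eq, forceH_eq, bif'_eq, band_eq, Bool.and_eq_true, beq_true_iff,
    ble_true_iff, blt_true_iff]
  generalize Nat.land (Nat.shiftRight p 2) 4095 = k at *
  generalize Nat.shiftRight p 14 = r
  have ha : ∀ {i j : ℕ} (s t : Bool), j < i → i < 24 → va (pt i) (pt j) s t ∈ L2 :=
    fun s t h1 h2 => mem_L2_iff.2 (Or.inr (Or.inr ⟨_, _, s, t, by
      rw [pn_pt h2, pn_pt (h1.trans h2)]; exact h1, rfl⟩))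
  split_ifs with h1 h2 h3 h4 h5
  · refine ⟨_, mem_L2_iff.2 (Or.inr (Or.inl ⟨_, ⟨ts_cw_mem hk, ?_⟩, _, inter_subset_left,
      inter_card_even (ts_cw_mem hk) (ts_cw_mem (land_lt r)), rfl⟩)), code_vb hk (land_lt r)⟩
    rw [card_ts (cw_lt hk), h1.2]
  · exact ⟨_, ha true false h2.2.1 h2.2.2, code_va h2.2.2 h2.2.1 true false⟩
  · exact ⟨_, ha false false h2.2.1 h2.2.2, code_va h2.2.2 h2.2.1 false false⟩
  · exact ⟨_, ha true true h4.2.1 h4.2.2, code_va h4.2.2 h4.2.1 true true⟩
  · exact ⟨_, ha false true h4.2.1 h4.2.2, code_va h4.2.2 h4.2.1 false true⟩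
  · exact ⟨_, mem_L2_iff.2 (Or.inl ⟨_, ts_cw_mem hk, _, rfl⟩),
      code_vc hk (Nat.mod_lt _ (by norm_num))⟩

/-- entry `i` of a table of 26-bit fields -/
def tg (T i : ℕ) : ℕ :=
  force (Nat.shiftRight i 6) fun b =>
    Nat.land (Nat.shiftRight (Nat.land (Nat.shiftRight T (Nat.mul 1664 b)) (Nat.sub (Nat.pow 2 1664) 1))
      (Nat.mul 26 (Nat.land i 63))) 67108863

/-- sum of `f` over the vectors with numbers `lo ≤ i < lo + 2 ^ d`, `i < N` of a table -/
def sumT (T N : ℕ) (f : ℕ → ℕ) (d lo : ℕ) : ℕ :=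
  sumBin (fun i => force (tg T i) fun p => forceH (pc p) f) N d lo

theorem sumT_add (T N : ℕ) (f : ℕ → ℕ) (d lo : ℕ) (h : lo < N) :
    sumT T N f (d + 1) lo = sumT T N f d lo + sumT T N f d (lo + 2 ^ d) := by
  show bif' (Nat.blt lo N) (Nat.add (sumT T N f d lo)
    (force (Nat.add lo (Nat.pow 2 d)) (sumT T N f d))) 0 = _
  rw [(blt_true_iff _ _).2 h, force_eq]; rfl

/-- the table is increasing and its vectors have class `t` -/
def okT (T N : ℕ) (κ : ℕ → ℕ) (t : ℕ) : Bool :=
  allLt N fun i => force (tg T i) fun p => forceH (pc p) fun n => band (Nat.beq (κ n) t)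
    (force (Nat.succ i) fun j => bimp (Nat.blt j N) (force (tg T j) fun q => Nat.blt n (pc q)))

theorem L2_bd {x : V} (hx : x ∈ L2) : Bd 8 x := bd_of_sqNorm (by rw [hx.2]; norm_num)

theorem sum_table {T N : ℕ} {κ : ℕ → ℕ} {t : ℕ} (h : okT T N κ t = true)
    (hc : (L2F.filter fun x => κ (enc x) = t).card = N) {d : ℕ} (hd : N ≤ 2 ^ d) (f : ℕ → ℕ) :
    ∑ x ∈ L2F.filter (fun x => κ (enc x) = t), f (enc x) = sumT T N f d 0 := by
  classical
  simp only [okT, allLt_iff, force_eq, forceH_eq, band_eq, Bool.and_eq_true, beq_true_iff, bimp_eq,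
    Bool.or_eq_true, Bool.not_eq_true', blt_true_iff] at h
  choose x hx1 hx2 using fun i => pc_spec (tg T i)
  have hmono : ∀ i j, i < j → j < N → enc (x i) < enc (x j) := by
    intro i j hij hj
    induction j with
    | zero => omega
    | succ j ih =>
      have : enc (x j) < enc (x (j + 1)) := by
        rcases (h j (by omega)).2 with h | h
        · rw [← Bool.not_eq_true, blt_true_iff] at h; exact absurd hj h
        · rwa [hx2, hx2] at h
      rcases Nat.lt_succ_iff_lt_or_eq.1 hij with h' | h'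
      · exact (ih h' (by omega)).trans this
      · rwa [h']
  have hinj : Set.InjOn x (range N : Set ℕ) := by
    intro i hi j hj e
    simp only [coe_range, Set.mem_Iio] at hi hj
    rcases lt_trichotomy i j with h | h | h
    · have := hmono i j h hj; rw [e] at this; omega
    · exact h
    · have := hmono j i h hi; rw [e] at this; omega
  have hF : (range N).image x = L2F.filter fun x => κ (enc x) = t := by
    apply eq_of_subset_of_card_le
    · intro y hy
      obtain ⟨i, hi, rfl⟩ := mem_image.1 hy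
      exact mem_filter.2 ⟨mem_L2F.2 (hx1 i), by rw [← hx2]; exact (h i (mem_range.1 hi)).1⟩
    · rw [hc, card_image_of_injOn hinj, card_range]
  rw [← hF, sum_image hinj, sumT, sumBin_spec, ← sum_filter]
  refine sum_congr ?_ fun i _ => by rw [force_eq, forceH_eq, hx2]
  ext i; simp only [mem_range, mem_filter, mem_Ico]; omega

end

end CfsgH6
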