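/-
Poisson summation for Gaussians in several variables.
-/
import Mathlib

set_option autoImplicit false
set_option linter.unusedSimpArgs false
set_option linter.unusedVariables false

namespace CfsgH6

open Complex Finset
open scoped Real

noncomputable section

variable {n : ℕ}

/-- the quadratic form of a matrix -/
def qf {R : Type*} [CommRing R] (A : Fin n → Fin n → R) (z : Fin n → R) : R :=
  ∑ i, ∑ j, A i j * z i * z j

theorem qf_add {R : Type*} [CommRing R] {A : Fin n → Fin n → R} (hA : ∀ i j, A i j = A j i)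
    (y w : Fin n → R) : qf A (fun i => y i + w i) =
      qf A y + 2 * ∑ j, (∑ i, A i j * w i) * y j + qf A w := by
  have h1 : ∑ j, (∑ i, A i j * w i) * y j = ∑ i, ∑ j, A i j * w i * y j := by
    simp only [sum_mul]; exact sum_comm
  have h2 : ∑ j, (∑ i, A i j * w i) * y j = ∑ i, ∑ j, A i j * y i * w j := by
    simp only [sum_mul]
    exact sum_congr rfl fun i _ => sum_congr rfl fun j _ => by rw [hA]; ring
  rw [two_mul]
  nth_rewrite 1 [h1]
  rw [h2]
  simp only [qf, ← sum_add_distrib]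
  exact sum_congr rfl fun i _ => sum_congr rfl fun j _ => by ring

theorem qf_eq {R : Type*} [CommRing R] (A : Fin n → Fin n → R) (w : Fin n → R) :
    qf A w = ∑ j, (∑ i, A i j * w i) * w j := by
  simp only [sum_mul, qf]; exact sum_comm

theorem qf_cons {R : Type*} [CommRing R] {A : Fin (n + 1) → Fin (n + 1) → R}
    (hA : ∀ i j, A i j = A j i) (x : R) (y : Fin n → R) : qf A (Fin.cons x y) =
      A 0 0 * x ^ 2 + 2 * x * ∑ j, A 0 j.succ * y j + qf (fun i j => A i.succ j.succ) y := by
  simp only [qf, Fin.sum_univ_succ, Fin.cons_zero, Fin.cons_succ, sum_add_distrib, mul_sum]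
  have h1 : ∑ j : Fin n, 2 * x * (A 0 j.succ * y j) =
      ∑ j : Fin n, A 0 j.succ * x * y j + ∑ j : Fin n, A j.succ 0 * y j * x := by
    rw [← sum_add_distrib]
    exact sum_congr rfl fun j _ => by rw [hA j.succ 0]; ring
  rw [h1]; ring

/-- a positive symmetric matrix and its inverse -/
structure Dual (A C : Fin n → Fin n → ℝ) : Prop where
  sA : ∀ i j, A i j = A j i
  sC : ∀ i j, C i j = C j i
  mul : ∀ i k, ∑ j, A i j * C j k = if i = k then 1 else 0
  pos : ∀ x, 0 ≤ qf A x

variable {A C : Fin n → Fin n → ℝ}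

theorem Dual.mulVec (h : Dual A C) (y : Fin n → ℝ) (j : Fin n) :
    ∑ i, A i j * ∑ k, C i k * y k = y j := by
  simp only [mul_sum]
  rw [sum_comm]
  have : ∀ k, ∑ i, A i j * (C i k * y k) = (if j = k then 1 else 0) * y k := fun k => by
    rw [← h.mul, sum_mul]
    exact sum_congr rfl fun i _ => by rw [h.sA]; ring
  simp [this]

theorem Dual.symm (h : Dual A C) : Dual C A where
  sA := h.sC
  sC := h.sA
  mul i k := by
    rw [← show (if k = i then (1 : ℝ) else 0) = if i = k then 1 else 0 by simp [eq_comm], ← h.mul]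
    exact sum_congr rfl fun j _ => by rw [h.sA, h.sC, mul_comm]
  pos y := by
    have := h.pos fun i => ∑ k, C i k * y k
    rw [qf_eq] at this ⊢
    simp only [h.mulVec] at this
    convert this using 2 with j
    rw [mul_comm]
    exact congrArg _ (sum_congr rfl fun i _ => by rw [h.sC])

theorem Dual.lower (h : Dual A C) (x : Fin n → ℝ) (i : Fin n) (t : ℝ) :
    2 * t * x i - t ^ 2 * C i i ≤ qf A x := by
  have h1 := h.pos fun k => x k + ∑ l, C k l * (if l = i then -t else 0)
  rw [qf_add h.sA, qf_eq A fun k => ∑ l, C k l * (if l = i then -t else 0)] at h1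
  simp only [h.mulVec] at h1
  simp at h1
  nlinarith

theorem summable_exp_abs : ∀ n : ℕ, Summable fun x : Fin n → ℤ => Real.exp (-∑ i, |(x i : ℝ)|)
  | 0 => Summable.of_finite
  | n + 1 => by
    have h1 : Summable fun k : ℤ => Real.exp (-|(k : ℝ)|) :=
      Summable.of_nat_of_neg (by simpa using Real.summable_exp_neg_nat)
        (by simpa using Real.summable_exp_neg_nat)
    rw [← (Fin.consEquiv fun _ => ℤ).summable_iff]
    convert h1.mul_of_nonneg (summable_exp_abs n) (fun _ => (Real.exp_pos _).le)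
      (fun _ => (Real.exp_pos _).le) using 2 with p
    simp [Fin.consEquiv, Fin.sum_univ_succ, ← Real.exp_add, add_comm]

theorem Dual.summable_real (h : Dual A C) {r : ℝ} (hr : 0 < r) (β : Fin n → ℝ) :
    Summable fun x : Fin n → ℤ => Real.exp (-r * qf A (fun i => x i) + ∑ i, β i * x i) := by
  set ρ := r / (n + 1) with hρ
  have hρ0 : 0 < ρ := by positivity
  set K := ∑ i, |β i|
  set T := (K + 1) / (2 * ρ) with hT
  refine Summable.of_nonneg_of_le (fun _ => (Real.exp_pos _).le) (fun x => ?_)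
    ((summable_exp_abs n).mul_left (Real.exp (ρ * T ^ 2 * ∑ i, C i i)))
  rw [← Real.exp_add, Real.exp_le_exp]
  have h1 : ∀ i, 2 * T * |(x i : ℝ)| - T ^ 2 * C i i ≤ qf A fun i => x i := fun i => by
    rcases abs_cases (x i : ℝ) with h2 | h2
    · rw [h2.1]; exact h.lower (fun i => x i) i T
    · have := h.lower (fun i => x i) i (-T)
      rw [h2.1]; linarith
  have h2 := sum_le_sum fun i (_ : i ∈ univ) => h1 i
  simp only [sum_sub_distrib, ← mul_sum, sum_const, card_univ, Fintype.card_fin, nsmul_eq_mul] at h2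
  have h3 : ∑ i, β i * x i ≤ K * ∑ i, |(x i : ℝ)| := by
    rw [mul_sum]
    refine sum_le_sum fun i _ => (le_abs_self _).trans ?_
    rw [abs_mul]
    exact mul_le_mul_of_nonneg_right (single_le_sum (f := fun i => |β i|)
      (fun _ _ => abs_nonneg _) (mem_univ i)) (abs_nonneg _)
  have h4 := h.pos fun i => x i
  have h5 : r = ρ * (n + 1) := by rw [hρ]; field_simp
  have h6 : 2 * ρ * T = K + 1 := by rw [hT]; field_simp
  have h7 := mul_le_mul_of_nonneg_left h2 hρ0.le
  generalize ∑ i, |(x i : ℝ)| = s at *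
  generalize qf A (fun i => (x i : ℝ)) = q at *
  have h8 : ρ * (2 * T * s) = (K + 1) * s := by rw [← h6]; ring
  nlinarith

/-- a Gaussian with a linear term -/
def gG (A : Fin n → Fin n → ℝ) (a : ℂ) (b : Fin n → ℂ) (x : Fin n → ℤ) : ℂ :=
  cexp (-π * a * qf (fun i j => (A i j : ℂ)) (fun i => x i) + 2 * π * ∑ i, b i * x i)

/-- the dual Gaussian -/
def gH (C : Fin n → Fin n → ℝ) (a : ℂ) (b : Fin n → ℂ) (y : Fin n → ℤ) : ℂ :=
  cexp (-π / a * qf (fun i j => (C i j : ℂ)) fun i => y i + I * b i)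

theorem qf_cast (A : Fin n → Fin n → ℝ) (x : Fin n → ℤ) :
    qf (fun i j => (A i j : ℂ)) (fun i => x i) = (qf A fun i => x i : ℝ) := by
  simp [qf]

theorem norm_gG (A : Fin n → Fin n → ℝ) (a : ℂ) (b : Fin n → ℂ) (x : Fin n → ℤ) :
    ‖gG A a b x‖ =
      Real.exp (-(π * a.re) * qf A (fun i => x i) + ∑ i, (2 * π * (b i).re) * x i) := by
  rw [gG, norm_exp, qf_cast]
  simp [mul_sum, mul_assoc]

theorem Dual.summable_G (h : Dual A C) {a : ℂ} (ha : 0 < a.re) (b : Fin n → ℂ) :
    Summable fun x => ‖gG A a b x‖ := by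
  simp only [norm_gG]
  exact h.summable_real (mul_pos Real.pi_pos ha) _

theorem re_inv_pos {a : ℂ} (ha : 0 < a.re) : 0 < (a⁻¹).re := by
  rw [inv_re]
  exact div_pos ha (normSq_pos.2 (by rintro rfl; simp at ha))

theorem Dual.summable_H (h : Dual A C) {a : ℂ} (ha : 0 < a.re) (b : Fin n → ℂ) :
    Summable (gH C a b) := by
  have := ((h.symm.summable_G (re_inv_pos ha)
    fun j => -a⁻¹ * ∑ i, (C i j : ℂ) * (I * b i)).of_norm).mul_left
      (cexp (-π / a * qf (fun i j => (C i j : ℂ)) fun i => I * b i))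
  refine this.congr fun y => Eq.symm ?_
  rw [gG, gH, ← exp_add, qf_add fun i j => by rw [h.sC]]
  congr 1
  simp only [mul_assoc (-a⁻¹), ← mul_sum]
  ring

theorem summable_gauss {s : ℂ} (hs : 0 < s.re) (w : ℂ) :
    Summable fun k : ℤ => cexp (-s * (k + w) ^ 2) := by
  have hπ : (π : ℂ) ≠ 0 := ofReal_ne_zero.2 Real.pi_ne_zero
  have := ((summable_jacobiTheta₂_term_iff (I * s * w / π) (I * s / π)).2 (by
    rw [div_ofReal_im]; exact div_pos (by simpa using hs) Real.pi_pos)).mul_left (cexp (-s * w ^ 2))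
  refine this.congr fun k => Eq.symm ?_
  rw [jacobiTheta₂_term, ← exp_add]
  congr 1
  field_simp
  ring_nf
  simp only [I_sq]
  ring

section step

variable {A C : Fin (n + 1) → Fin (n + 1) → ℝ}

theorem Dual.pos00 (h : Dual A C) : 0 < A 0 0 := by
  have h1 := fun t => h.lower (Fin.cons 1 0) 0 t
  have h2 := h.symm.pos (Fin.cons 1 0)
  rw [qf_cons h.sC] at h2
  simp only [qf_cons h.sA] at h1
  simp [qf] at h1 h2
  have h3 := h1 (1 / (C 0 0 + 1))
  have h4 : 0 < C 0 0 + 1 := by linarith
  have h5 : (1 / (C 0 0 + 1)) ^ 2 * C 0 0 < 2 * (1 / (C 0 0 + 1)) := by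
    field_simp; nlinarith
  linarith

/-- the Schur complement -/
def schur (A : Fin (n + 1) → Fin (n + 1) → ℝ) : Fin n → Fin n → ℝ :=
  fun i j => A i.succ j.succ - A 0 i.succ * A 0 j.succ / A 0 0

theorem Dual.row (h : Dual A C) (j : Fin n) :
    ∑ i : Fin n, A 0 i.succ * C i.succ j.succ = -(A 0 0 * C 0 j.succ) := by
  have := h.mul 0 j.succ
  rw [Fin.sum_univ_succ, if_neg (Fin.succ_ne_zero j).symm] at this
  linarith

theorem qf_schur {R : Type*} [Field R] (A : Fin n → Fin n → R) (β : Fin n → R) (α : R)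
    (y : Fin n → R) :
    qf (fun i j => A i j - β i * β j / α) y = qf A y - (∑ j, β j * y j) ^ 2 / α := by
  simp only [qf, sq, sum_mul_sum, sum_div, ← sum_sub_distrib]
  exact sum_congr rfl fun i _ => sum_congr rfl fun j _ => by ring

theorem Dual.step (h : Dual A C) : Dual (schur A) fun i j => C i.succ j.succ where
  sA i j := by rw [schur, schur, h.sA, mul_comm]
  sC i j := h.sC _ _
  mul i k := by
    have h1 := h.mul i.succ k.succ
    have h2 := h.row k
    have h3 := h.pos00
    rw [Fin.sum_univ_succ] at h1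
    simp only [Fin.succ_inj] at h1
    have : ∀ j : Fin n, schur A i j * C j.succ k.succ = A i.succ j.succ * C j.succ k.succ -
        A 0 i.succ / A 0 0 * (A 0 j.succ * C j.succ k.succ) := fun j => by rw [schur]; ring
    simp only [this, sum_sub_distrib, ← mul_sum, h2]
    rw [← h1, h.sA i.succ 0]
    field_simp
    ring
  pos y := by
    have h1 := h.pos (Fin.cons (-(∑ j, A 0 j.succ * y j) / A 0 0) y)
    have h3 := h.pos00
    rw [qf_cons h.sA] at h1
    unfold schur
    rw [qf_schur]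
    convert h1 using 1
    field_simp
    ring

theorem Dual.qf_dual (h : Dual A C) (z : ℂ) (w : Fin n → ℂ) :
    qf (fun i j => (C i j : ℂ)) (Fin.cons z w) = z ^ 2 / A 0 0 +
      qf (fun i j => (C i.succ j.succ : ℂ)) fun j => w j + -(z / A 0 0) * A 0 j.succ := by
  have h3 : (A 0 0 : ℂ) ≠ 0 := ofReal_ne_zero.2 h.pos00.ne'
  have h1 : ∀ j : Fin n, ∑ i : Fin n, (C i.succ j.succ : ℂ) * (-(z / A 0 0) * A 0 i.succ) =
      z * C 0 j.succ := fun j => by
    have := congrArg (fun t : ℝ => (t : ℂ)) (h.row j)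
    push_cast at this
    have h2 : ∀ i : Fin n, (C i.succ j.succ : ℂ) * (-(z / A 0 0) * A 0 i.succ) =
      -(z / A 0 0) * (A 0 i.succ * C i.succ j.succ) := fun i => by ring
    simp only [h2, ← mul_sum, this]
    field_simp
  have h4 := congrArg (fun t : ℝ => (t : ℂ)) (h.mul 0 0)
  rw [Fin.sum_univ_succ] at h4
  push_cast at h4
  simp only [if_true, ofReal_one] at h4
  rw [qf_cons fun i j => by rw [h.sC], qf_add fun i j => by rw [h.sC],
    qf_eq _ fun j => -(z / A 0 0) * (A 0 j.succ : ℂ)]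
  simp only [h1]
  have h5 : ∀ j : Fin n, z * C 0 j.succ * (-(z / A 0 0) * A 0 j.succ) =
      -(z ^ 2 / A 0 0) * (A 0 j.succ * C j.succ 0) := fun j => by rw [h.sC 0]; ring
  simp only [h5, ← mul_sum, mul_assoc z, eq_sub_of_add_eq' h4]
  field_simp
  ring

end step

theorem cpow_half_mul {a : ℂ} (ha : 0 < a.re) {r : ℝ} (hr : 0 < r) :
    (a * r) ^ (1 / 2 : ℂ) = a ^ (1 / 2 : ℂ) * (r : ℂ) ^ (1 / 2 : ℂ) := by
  have h0 : a ≠ 0 := by rintro rfl; simp at ha
  have h1 : (r : ℂ) ≠ 0 := ofReal_ne_zero.2 hr.ne'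
  rw [cpow_def_of_ne_zero (mul_ne_zero h0 h1), cpow_def_of_ne_zero h0, cpow_def_of_ne_zero h1,
    mul_comm a, log_ofReal_mul hr h0, ← exp_add, ofReal_log hr.le]
  congr 1; ring

theorem poisson : ∀ (n : ℕ) {A C : Fin n → Fin n → ℝ}, Dual A C → ∃ c : ℂ, ∀ (a : ℂ)
    (b : Fin n → ℂ), 0 < a.re → ∑' x, gG A a b x = c / (a ^ (1 / 2 : ℂ)) ^ n * ∑' y, gH C a b y
  | 0, A, C, h => ⟨1, fun a b _ => by simp [gG, gH, qf]⟩
  | n + 1, A, C, h => by
    obtain ⟨c, hc⟩ := poisson n h.step
    refine ⟨c / (A 0 0 : ℂ) ^ (1 / 2 : ℂ), fun a b ha => ?_⟩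
    have h0 : a ≠ 0 := by rintro rfl; simp at ha
    have hα := h.pos00
    have h3 : (A 0 0 : ℂ) ≠ 0 := ofReal_ne_zero.2 hα.ne'
    have ha' : 0 < (a * A 0 0).re := by rw [mul_re]; simpa using mul_pos ha hα
    let b' : ℤ → Fin n → ℂ := fun y j => b j.succ + I * (y + I * b 0) / A 0 0 * A 0 j.succ
    let E : ℤ → ℂ := fun y => cexp (-(π / (a * A 0 0)) * (y + I * b 0) ^ 2)
    have hE : Summable E := summable_gauss (by
      rw [div_eq_mul_inv, re_ofReal_mul]; exact mul_pos Real.pi_pos (re_inv_pos ha')) _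
    have hF : Summable (Function.uncurry fun y x => E y * gG (schur A) a (b' y) x) := by
      refine .of_norm ?_
      convert hE.norm.mul_of_nonneg (h.step.summable_G ha (b' 0)) (fun _ => norm_nonneg _)
        (fun _ => norm_nonneg _) using 2 with p
      simp only [Function.uncurry, norm_mul, norm_gG]
      congr 4
      funext j
      simp [b', div_ofReal_re]
    have h1 : ∀ x : Fin n → ℤ, ∑' k : ℤ, gG A a b (Fin.cons k x) =
        1 / (a * A 0 0) ^ (1 / 2 : ℂ) * ∑' y, E y * gG (schur A) a (b' y) x := fun x => by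
      have h2 : ∀ k : ℤ, gG A a b (Fin.cons k x) = cexp (-π * (a * A 0 0) * k ^ 2 +
          2 * π * (b 0 - a * ∑ j, (A 0 j.succ : ℂ) * x j) * k) *
          gG (fun i j => A i.succ j.succ) a (fun j => b j.succ) x := fun k => by
        have e : (fun i => ((Fin.cons k x : Fin (n + 1) → ℤ) i : ℂ)) =
            Fin.cons (k : ℂ) fun j => (x j : ℂ) := by
          funext i; refine Fin.cases ?_ (fun j => ?_) i <;> simp
        rw [gG, gG, ← exp_add, e, qf_cons fun i j => by rw [h.sA], Fin.sum_univ_succ]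
        simp only [Fin.cons_zero, Fin.cons_succ]
        congr 1; ring
      simp only [h2]
      rw [tsum_mul_right, Complex.tsum_exp_neg_quadratic ha', mul_assoc, ← tsum_mul_right]
      congr 2
      funext y
      rw [gG, gG, ← exp_add, ← exp_add]
      congr 1
      have e : (fun i j => (schur A i j : ℂ)) =
          fun i j => (A i.succ j.succ : ℂ) - (A 0 i.succ : ℂ) * A 0 j.succ / A 0 0 := by
        funext i j; simp [schur]
      rw [e, qf_schur]
      simp only [b', add_mul, sum_add_distrib, mul_assoc (I * (y + I * b 0) / A 0 0), ← mul_sum]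
      field_simp
      ring_nf
      simp only [I_sq]
      ring
    have h4 : ∀ y : ℤ, ∑' x, E y * gG (schur A) a (b' y) x =
        c / (a ^ (1 / 2 : ℂ)) ^ n * ∑' w, gH C a b (Fin.cons y w) := fun y => by
      rw [tsum_mul_left, hc a _ ha, mul_left_comm, ← tsum_mul_left]
      congr 2
      funext w
      have e : (fun i => ((Fin.cons y w : Fin (n + 1) → ℤ) i : ℂ) + I * b i) =
          Fin.cons ((y : ℂ) + I * b 0) fun j => (w j : ℂ) + I * b j.succ := by
        funext i; refine Fin.cases ?_ (fun j => ?_) i <;> simp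
      rw [gH, gH, ← exp_add, e, h.qf_dual, mul_add]
      congr 2
      · field_simp
      · congr 2
        funext j
        simp only [b']
        linear_combination ((y + I * b 0) / A 0 0 * A 0 j.succ) * I_mul_I
    have h5 : Summable (Function.uncurry fun k x => gG A a b (Fin.cons k x)) :=
      (Fin.consEquiv fun _ => ℤ).summable_iff.2 (h.summable_G ha b).of_norm
    have h6 : Summable (Function.uncurry fun k x => gH C a b (Fin.cons k x)) :=
      (Fin.consEquiv fun _ => ℤ).summable_iff.2 (h.summable_H ha b)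
    have h7 : ∑' x, gG A a b x = ∑' k, ∑' x, gG A a b (Fin.cons k x) :=
      ((Fin.consEquiv fun _ => ℤ).tsum_eq _).symm.trans h5.tsum_prod
    have h8 : ∑' x, gH C a b x = ∑' k, ∑' x, gH C a b (Fin.cons k x) :=
      ((Fin.consEquiv fun _ => ℤ).tsum_eq _).symm.trans h6.tsum_prod
    rw [h7, h8, ← h5.tsum_comm, tsum_congr h1, tsum_mul_left, hF.tsum_comm, tsum_congr h4,
      tsum_mul_left, cpow_half_mul ha hα, ← mul_assoc]
    congr 1
    rw [pow_succ]
    ring

end

end CfsgH6
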