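/-
The theta series of an even unimodular lattice of rank 24.
-/
import Cfsg.Agent.H6.Poisson

set_option autoImplicit false
set_option linter.unusedSimpArgs false
set_option linter.unusedVariables false

namespace CfsgH6

open Complex Finset Matrix ModularForm MatrixGroups
open UpperHalfPlane hiding I I_re I_im continuous_im
open scoped Real ArithmeticFunction.sigma

noncomputable section

theorem qf_eq_dot {n : ℕ} (B : Matrix (Fin n) (Fin n) ℤ) (x : Fin n → ℤ) :
    qf B x = x ⬝ᵥ (B *ᵥ x) := by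
  simp only [qf, dotProduct, mulVec, mul_sum]
  exact sum_congr rfl fun i _ => sum_congr rfl fun j _ => by ring

theorem psd_real {n : ℕ} (B : Fin n → Fin n → ℤ) (h : ∀ x, 0 ≤ qf B x) (x : Fin n → ℝ) :
    0 ≤ qf (fun i j => (B i j : ℝ)) x := by
  have h1 : ∀ x : Fin n → ℚ, 0 ≤ qf (fun i j => (B i j : ℚ)) x := fun x => by
    obtain ⟨⟨d, hd⟩, h2⟩ := IsLocalization.exist_integer_multiples_of_finite (nonZeroDivisors ℤ) x
    choose y hy using h2
    have h3 : ((qf B y : ℤ) : ℚ) = d ^ 2 * qf (fun i j => (B i j : ℚ)) x := by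
      have : ∀ i, (y i : ℚ) = d * x i := fun i => by simpa using hy i
      simp only [qf, mul_sum]
      push_cast
      exact sum_congr rfl fun i _ => sum_congr rfl fun j _ => by rw [this, this]; ring
    have h4 : (0 : ℚ) < d ^ 2 := by
      have : d ≠ 0 := nonZeroDivisors.ne_zero hd
      positivity
    have h5 : (0 : ℚ) ≤ (qf B y : ℤ) := by exact_mod_cast h y
    rw [h3] at h5
    exact nonneg_of_mul_nonneg_right h5 h4 |> fun t => t
  have hd : DenseRange (Pi.map fun (_ : Fin n) => ((↑) : ℚ → ℝ)) :=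
    DenseRange.piMap fun _ => Rat.denseRange_cast
  refine hd.induction_on x (isClosed_le continuous_const (by unfold qf; fun_prop)) fun y => ?_
  have := h1 y
  unfold qf at *
  simp only [Pi.map_apply]
  exact_mod_cast this

variable {B : Matrix (Fin 24) (Fin 24) ℤ}

/-- the hypotheses on the Gram matrix -/
structure EU (B : Matrix (Fin 24) (Fin 24) ℤ) : Prop where
  symm : B.IsSymm
  pos : ∀ x, 0 ≤ qf B x
  even : ∀ x, 2 ∣ qf B x
  det : B.det = 1

theorem EU.dual (h : EU B) : Dual (fun i j => (B i j : ℝ)) fun i j => (B.adjugate i j : ℝ) where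
  sA i j := by rw [h.symm.apply]
  sC i j := by
    have : B.adjugate.IsSymm := by rw [IsSymm, adjugate_transpose, h.symm.eq]
    rw [this.apply]
  mul i k := by
    have := congrFun (congrFun (mul_adjugate B) i) k
    rw [h.det, one_smul, mul_apply, one_apply] at this
    exact_mod_cast this
  pos := psd_real B h.pos

/-- a term of the theta series -/
def thT (B : Matrix (Fin 24) (Fin 24) ℤ) (τ : ℂ) (x : Fin 24 → ℤ) : ℂ :=
  cexp (π * I * τ * (qf B x : ℤ))

/-- the theta series -/
def th (B : Matrix (Fin 24) (Fin 24) ℤ) (τ : ℂ) : ℂ := ∑' x, thT B τ x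

theorem thT_eq (τ : ℂ) (x : Fin 24 → ℤ) : thT B τ x = gG (fun i j => (B i j : ℝ)) (-I * τ) 0 x := by
  simp only [thT, gG, qf]
  push_cast
  congr 1
  simp only [Pi.zero_apply, zero_mul, sum_const_zero]
  ring

theorem EU.summable (h : EU B) {τ : ℂ} (hτ : 0 < τ.im) : Summable fun x => ‖thT B τ x‖ := by
  simp only [thT_eq]
  exact h.dual.summable_G (by simpa using hτ) 0

theorem norm_thT (τ : ℂ) (x : Fin 24 → ℤ) : ‖thT B τ x‖ = Real.exp (-(π * τ.im * (qf B x : ℤ))) := by
  rw [thT, norm_exp]; simp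

theorem EU.th_S (h : EU B) {τ : ℂ} (hτ : 0 < τ.im) : th B (-1 / τ) = τ ^ 12 * th B τ := by
  obtain ⟨c, hc⟩ := poisson 24 h.dual
  have h1 : B * B.adjugate = 1 := by rw [mul_adjugate, h.det, one_smul]
  have h2 : B.adjugate * B = 1 := by rw [adjugate_mul, h.det, one_smul]
  let e : (Fin 24 → ℤ) ≃ (Fin 24 → ℤ) := ⟨fun x => B *ᵥ x, fun x => B.adjugate *ᵥ x,
    fun x => by simp [h2], fun x => by simp [h1]⟩
  have key : ∀ τ : ℂ, 0 < τ.im → th B τ = c / τ ^ 12 * th B (-1 / τ) := fun τ hτ => by
    have h0 : τ ≠ 0 := by rintro rfl; simp at hτ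
    have h3 : -I * τ ≠ 0 := by simp [h0]
    rw [th, tsum_congr (thT_eq τ), hc _ _ (by simpa using hτ), ← e.tsum_eq, th]
    congr 1
    · rw [← cpow_nat_mul, show ((24 : ℕ) : ℂ) * (1 / 2) = (12 : ℕ) by norm_num, cpow_natCast, mul_pow,
        neg_pow, show I ^ 12 = 1 by rw [show 12 = 4 * 3 from rfl, pow_mul, I_pow_four, one_pow]]
      norm_num
    · refine tsum_congr fun x => ?_
      have h4 : qf B.adjugate (B *ᵥ x) = qf B x := by
        rw [qf_eq_dot, qf_eq_dot, mulVec_mulVec, h2, one_mulVec, dotProduct_comm]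
      rw [gH, thT, ← h4]
      simp only [qf, e]
      push_cast
      congr 1
      simp only [Pi.zero_apply, mul_zero, add_zero, Equiv.coe_fn_mk]
      refine congrArg (· * _) ?_
      field_simp
      ring_nf
      simp
  have h5 := key I (by simp)
  have h6 : th B I ≠ 0 := by
    have : th B I = ((∑' x, ‖thT B I x‖ : ℝ) : ℂ) := by
      rw [ofReal_tsum, th]
      refine tsum_congr fun x => ?_
      rw [norm_thT, thT, ofReal_exp]
      congr 1
      push_cast
      simp [mul_assoc]
    rw [this, ofReal_ne_zero]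
    exact ((h.summable (by simp)).tsum_pos (fun _ => norm_nonneg _) 0 (by simp [thT])).ne'
  rw [show -1 / I = I by simp, show I ^ 12 = 1 by
    rw [show 12 = 4 * 3 from rfl, pow_mul, I_pow_four, one_pow], div_one] at h5
  have h7 : c = 1 := by
    apply mul_right_cancel₀ h6; rw [← h5, one_mul]
  have h0 : τ ≠ 0 := by rintro rfl; simp at hτ
  rw [key τ hτ, h7]
  field_simp

theorem EU.th_T (h : EU B) (τ : ℂ) : th B (1 + τ) = th B τ := by
  refine tsum_congr fun x => ?_
  obtain ⟨m, hm⟩ := h.even x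
  rw [thT, thT, hm, show π * I * (1 + τ) * ((2 * m : ℤ) : ℂ) =
    π * I * τ * ((2 * m : ℤ) : ℂ) + m * (2 * π * I) by push_cast; ring, exp_add,
    exp_int_mul_two_pi_mul_I, mul_one]

theorem EU.hasSum (h : EU B) (τ : ℍ) :
    HasSum (fun m : ℕ => (({x | qf B x = 2 * m} : Set _).ncard : ℂ) • Function.Periodic.qParam 1 τ ^ m)
      (th B τ) := by
  have := (h.summable τ.im_pos).of_norm.hasSum.tsum_fiberwise fun x => (qf B x / 2).toNat
  refine this.congr_fun fun m => Eq.symm ?_
  have h1 : (fun x => (qf B x / 2).toNat) ⁻¹' {m} = {x | qf B x = 2 * m} := by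
    ext x
    have := h.pos x; have := h.even x
    simp only [Set.mem_preimage, Set.mem_singleton_iff, Set.mem_ofPred_eq]
    omega
  rw [h1, tsum_congr (g := fun _ => Function.Periodic.qParam 1 τ ^ m), tsum_const, Nat.card_coe_set_eq,
    nsmul_eq_mul, smul_eq_mul]
  rintro ⟨x, hx⟩
  rw [thT, show qf B x = 2 * m from hx, Function.Periodic.qParam, ← exp_nat_mul]
  congr 1
  push_cast; ring

theorem EU.slash (h : EU B) (γ : SL(2, ℤ)) :
    (fun τ : ℍ => th B τ) ∣[(12 : ℤ)] γ = fun τ : ℍ => th B τ := by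
  refine SlashInvariantForm.slash_action_generators_SL2Z ?_ ?_ γ
  · funext τ
    rw [SL_slash_apply, modular_S_smul]
    have h0 : (τ : ℂ) ≠ 0 := τ.ne_zero
    simp only [coe_mk, ModularGroup.denom_S]
    rw [show (-(τ : ℂ))⁻¹ = -1 / τ by field_simp, h.th_S τ.im_pos]
    field_simp
  · funext τ
    rw [SL_slash_apply, modular_T_smul, ModularGroup.denom_apply]
    have h1 : ModularGroup.T 1 0 = 0 := rfl
    have h2 : ModularGroup.T 1 1 = 1 := rfl
    rw [h1, h2]
    simp [h.th_T]

/-- the theta series as a modular form -/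
def EU.form (h : EU B) : ModularForm 𝒮ℒ 12 where
  toFun τ := th B τ
  slash_action_eq' A hA := by
    obtain ⟨A, rfl⟩ := hA
    exact h.slash A
  holo' := by
    rw [UpperHalfPlane.mdifferentiable_iff]
    intro z hz
    have hz' : 0 < z.im := hz
    have h1 : DifferentiableOn ℂ (th B) {w | z.im / 2 < w.im} := by
      refine differentiableOn_tsum_of_summable_norm
        (h.summable (τ := I * (z.im / 2 : ℝ)) (by simpa using hz')) (fun x => ?_)
        (isOpen_lt continuous_const continuous_im) fun x w hw => ?_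
      · unfold thT; fun_prop
      · rw [norm_thT, norm_thT, Real.exp_le_exp, neg_le_neg_iff]
        have : (0 : ℝ) ≤ (qf B x : ℤ) := by exact_mod_cast h.pos x
        have h2 : z.im / 2 < w.im := hw
        simp only [mul_im, I_re, ofReal_im, mul_zero, I_im, ofReal_re, one_mul, zero_add]
        gcongr
    have h2 := h1.differentiableAt ((isOpen_lt continuous_const continuous_im).mem_nhds
      (show z.im / 2 < z.im by linarith))
    exact h2.differentiableWithinAt.congr
      (fun w hw => by simp [ofComplex_apply_of_im_pos hw]) (by simp [ofComplex_apply_of_im_pos hz])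
  bdd_at_cusps' hc := by
    rw [Subgroup.IsArithmetic.isCusp_iff_isCusp_SL2Z] at hc
    rw [OnePoint.isBoundedAt_iff_forall_SL2Z hc]
    intro γ _
    rw [h.slash]
    exact isBoundedAtImInfty_of_hasSum_qExpansion one_pos h.hasSum

theorem EU.coeff (h : EU B) (m : ℕ) :
    (qExpansion 1 h.form).coeff m = (({x | qf B x = 2 * m} : Set _).ncard : ℂ) :=
  (ModularFormClass.qExpansion_coeff_unique one_pos one_mem_strictPeriods_SL (f := h.form)
    h.hasSum m).symm

theorem E4_coeff (m : ℕ) : (qExpansion 1 E₄).coeff m = if m = 0 then 1 else 240 * (σ 3 m : ℂ) := by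
  rw [EisensteinSeries.E_qExpansion_coeff _ ⟨2, rfl⟩, show bernoulli 4 = -1 / 30 by decide +kernel]
  norm_num

theorem E6_coeff (m : ℕ) : (qExpansion 1 E₆).coeff m = if m = 0 then 1 else -504 * (σ 5 m : ℂ) := by
  rw [EisensteinSeries.E_qExpansion_coeff _ ⟨3, rfl⟩, show bernoulli 6 = 1 / 42 by decide +kernel]
  norm_num

theorem EU.counts (h : EU B) (h0 : ∀ x, qf B x = 0 → x = 0) (h2 : ∀ x, qf B x ≠ 2) :
    ({x | qf B x = 4} : Set _).ncard = 196560 ∧ ({x | qf B x = 6} : Set _).ncard = 16773120 ∧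
      ({x | qf B x = 8} : Set _).ncard = 398034000 := by
  let f : ModularForm 𝒮ℒ 12 := (12 : ℂ) • h.form - ((7 : ℂ) • ModularForm.mcast (by decide) (E₄.pow 3) +
    (5 : ℂ) • ModularForm.mcast (by decide) (E₆.pow 2))
  have hq : qExpansion 1 f = (12 : ℂ) • qExpansion 1 h.form -
      ((7 : ℂ) • (qExpansion 1 E₄ * qExpansion 1 E₄ * qExpansion 1 E₄) +
        (5 : ℂ) • (qExpansion 1 E₆ * qExpansion 1 E₆)) := by
    simp only [f, FunLike.coe_sub]
    rw [ModularForm.qExpansion_sub one_pos one_mem_strictPeriods_SL]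
    simp only [FunLike.coe_add]
    rw [ModularForm.qExpansion_add one_pos one_mem_strictPeriods_SL]
    simp only [FunLike.coe_smul]
    rw [ModularForm.qExpansion_smul one_pos one_mem_strictPeriods_SL,
      ModularForm.qExpansion_smul one_pos one_mem_strictPeriods_SL,
      ModularForm.qExpansion_smul one_pos one_mem_strictPeriods_SL, ModularForm.qExpansion_mcast,
      ModularForm.qExpansion_mcast, ModularForm.qExpansion_pow one_pos one_mem_strictPeriods_SL,
      ModularForm.qExpansion_pow one_pos one_mem_strictPeriods_SL, pow_succ, pow_two, pow_two]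
  have s3 : σ 3 1 = 1 ∧ σ 3 2 = 9 ∧ σ 3 3 = 28 ∧ σ 3 4 = 73 := by decide +kernel
  have s5 : σ 5 1 = 1 ∧ σ 5 2 = 33 ∧ σ 5 3 = 244 ∧ σ 5 4 = 1057 := by decide +kernel
  have c0 : ({x | qf B x = 2 * (0 : ℕ)} : Set _).ncard = 1 := by
    rw [Set.ncard_eq_one]
    exact ⟨0, Set.ext fun x => ⟨fun hx => h0 x hx, fun hx => by rw [hx]; simp [qf]⟩⟩
  have c1 : ({x | qf B x = 2 * (1 : ℕ)} : Set _).ncard = 0 := by
    rw [show ({x | qf B x = 2 * (1 : ℕ)} : Set _) = ∅ from Set.eq_empty_of_forall_notMem h2]; simp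
  have hf : f = 0 := by
    apply ModularForm.sturm_bound_levelOne
    refine lt_of_lt_of_le (b := ((2 : ℕ) : ℕ∞)) (by norm_num; decide)
      (PowerSeries.nat_le_order _ 2 fun i hi => ?_)
    rw [hq]
    interval_cases i <;>
      simp only [map_sub, map_add, map_smul, h.coeff, c0, c1] <;>
      norm_num [PowerSeries.coeff_mul, Finset.Nat.antidiagonal_succ, E4_coeff, E6_coeff, s3, s5]
  rw [hf] at hq
  have k := fun m => congrArg (PowerSeries.coeff m) hq
  have k2 := k 2
  have k3 := k 3
  have k4 := k 4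
  simp only [FunLike.coe_zero, qExpansion_zero, map_zero, map_sub, map_add, map_smul,
    h.coeff] at k2 k3 k4
  norm_num [PowerSeries.coeff_mul, Finset.Nat.antidiagonal_succ, E4_coeff, E6_coeff, s3, s5]
    at k2 k3 k4
  refine ⟨?_, ?_, ?_⟩ <;> apply Nat.cast_injective (R := ℂ) <;> push_cast
  · linear_combination (-1 / 12) * k2
  · linear_combination (-1 / 12) * k3
  · linear_combination (-1 / 12) * k4

end

end CfsgH6
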